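/-
Exceptional characters for a self-centralising semiregular subgroup (chunk EXC of notes/SG.md).
-/
import Cfsg.Agent.H13.SG0
import Cfsg.Agent.H21.ExcAb
import Cfsg.Agent.H5.Virtual

set_option autoImplicit false

namespace H5.SG
open _root_.Cfsg H5 H13.SG H21 Finset Subgroup
open scoped ComplexConjugate

universe u
variable {G P : Type u} [Group G] [Fintype P] [MulAction G P] {C : Subgroup G} {n : ℕ}

theorem tau0 [Fintype G] {χ : G → ℂ} (h : IsIrrCharacter G χ) (h0 : ∑ y, χ y * Nat.card (MulAction.fixedBy P y) = 0)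
    (A : P → P → ℂ) : ∑ y : G, (∑ x, A x (y • x)) * conj (χ y) = 0 := by
  classical
  let E : P → P → ℂ := fun x x' => ∑ y, if y • x = x' then conj (χ y) else 0
  have fib : ∀ B : P → P → ℂ, ∑ y : G, (∑ x, B x (y • x)) * conj (χ y) = ∑ x, ∑ x', B x x' * E x x' := fun B => by
    simp only [E, mul_sum, sum_mul, mul_ite, mul_zero]
    rw [sum_comm]
    exact sum_congr rfl fun x _ => by rw [sum_comm]; simp
  have k : ∑ x, ∑ x', Complex.normSq (E x x') = 0 := by
    have h1 := fib fun x x' => conj (E x x')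
    simp only [← Complex.normSq_eq_conj_mul_self, ← Complex.ofReal_sum] at h1
    rw [← Complex.ofReal_eq_zero, ← h1]
    have h2 : ∀ (y : G) x, conj (E x (y • x)) = ∑ w, if w • x = x then χ (y * w) else 0 := fun y x => by
      simp only [E, map_sum, apply_ite conj, Complex.conj_conj, map_zero]
      rw [← Equiv.sum_comp (Equiv.mulLeft y)]; simp [mul_smul]
    have h3 := fun w => h.sum_mul_apply_inv h w
    simp only [h.apply_inv, if_true] at h3
    simp only [h2, sum_mul, ite_mul, zero_mul]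
    rw [sum_comm, sum_congr rfl fun x _ => sum_comm, sum_comm]
    refine Eq.trans (sum_congr rfl fun w _ => ?_) ((mul_sum ..).symm.trans (mul_eq_zero_of_right ((Nat.card G : ℂ) / χ 1) h0))
    simp only [sum_ite_irrel, h3, sum_const_zero]
    simp only [← sum_filter, sum_const, nsmul_eq_mul]
    rw [Nat.card_eq_fintype_card (α := MulAction.fixedBy P w), Fintype.card_subtype]
    simp only [MulAction.mem_fixedBy]; ring
  rw [fib, sum_eq_zero fun x _ => sum_eq_zero fun x' _ => ?_]
  rw [Complex.normSq_eq_zero.1 ((sum_eq_zero_iff_of_nonneg fun _ _ => Complex.normSq_nonneg _).1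
    ((sum_eq_zero_iff_of_nonneg fun _ _ => sum_nonneg fun _ _ => Complex.normSq_nonneg _).1 k x (mem_univ _)) x' (mem_univ _)),
    mul_zero]

section
variable (h : AH P C n)
include h

theorem comm : IsMulCommutative C := ⟨⟨fun a b => Subtype.ext (by
  by_cases e : b.1 = 1
  · simp [e]
  · exact (h.cc b b.2 e a).2 a.2)⟩⟩

theorem ti {g a : G} (ha : a ∈ C) (a1 : a ≠ 1) (k : g * a * g⁻¹ ∈ C) : g ∈ normalizer (C : Set G) :=
  mem_normalizer_iff.2 fun y => by
    rw [← h.cc a ha a1, ← h.cc _ k (by simpa using a1), conj_mul, conj_mul, mul_left_inj, mul_right_inj]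

theorem cen {a : G} (ha : a ∈ C) (a1 : a ≠ 1) : centralizer {a} = C :=
  Subgroup.ext fun y => mem_centralizer_singleton_iff.trans (h.cc a ha a1 y)

theorem n1 [Finite G] : 1 ≤ n := (Nat.pos_of_ne_zero (index_ne_zero_of_finite)).trans_le h.nx

theorem nt [Finite G] : ∃ x : C, x ≠ 1 :=
  haveI : Nontrivial C := Finite.one_lt_card_iff_nontrivial.1 (by have := h.big; have := n1 h; nlinarith)
  exists_ne 1

theorem free : FreeAut C.normalizerMonoidHom.range := by
  rintro _ ⟨x, rfl⟩ a a1 e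
  have k := (h.cc a a.2 (by simpa using a1) x).1 (mul_inv_eq_iff_eq_mul.1 (congrArg Subtype.val e))
  have := comm h
  exact MulEquiv.ext fun b => Subtype.ext (mul_inv_eq_iff_eq_mul.2 (congrArg Subtype.val (mul_comm' ⟨x, k⟩ b)))

theorem cardE [Finite G] : Nat.card C.normalizerMonoidHom.range = C.relIndex (normalizer C) := by
  obtain ⟨x, x1⟩ := nt h
  have := comm h
  rw [← index_ker, normalizerMonoidHom_ker, show centralizer (C : Set G) = C from le_antisymm
    ((centralizer_le (Set.singleton_subset_iff.2 x.2)).trans (cen h x.2 (by simpa using x1)).le) (le_centralizer C), relIndex]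

theorem data [Finite G] [Fintype C] [DecidableEq (IrrCharacter G)] : ∃ δ ζ a Y,
    ExcData C.normalizerMonoidHom.range (fun (χ : IrrCharacter G) (x : C) => χ.1 x) δ 0 ζ a Y ∧ 4 * (n + 1) ≤ Y.card ∧
    ∑ i with i ∉ Y, a i ^ 2 = Nat.card C.normalizerMonoidHom.range := by
  classical
  have := comm h
  have := Fintype.ofFinite G
  have mn := (cardE h).le.trans h.nx
  have := h.big
  have := n1 h
  choose d d0 hd using fun χ : IrrCharacter G => χ.2.exists_apply_one
  obtain ⟨δ, d, ζ, a, Y, h1, h2⟩ := exc_ab_norm (free h) (F := fun (χ : IrrCharacter G) (x : C) => χ.1 x)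
    (fun χ μ => let ⟨m, hm⟩ := (χ.2.isCharacter.restrict C).exists_classInner_nat (isCharacter_unitsHom μ)
      ⟨m, by rw [← card_mul_classInner, hm, Int.cast_natCast]⟩)
    (fun x y hx hy => by
      split_ifs with k
      · obtain ⟨_, ⟨g, rfl⟩, rfl⟩ := k
        exact (sum_irr_mul_conj_of_isConj (g := x.1) (isConj_iff.2 ⟨g, rfl⟩)).trans (by rw [cen h x.2 (by simpa using hx)])
      refine sum_irr_mul_conj_of_not_isConj fun k' => ?_
      obtain ⟨g, e⟩ := isConj_iff.1 k'
      exact k ⟨_, ⟨⟨g, ti h x.2 (by simpa using hx) (e ▸ y.2)⟩, rfl⟩, Subtype.ext e⟩)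
    (d := fun χ => d χ) (fun χ => by exact_mod_cast d0 χ)
    (fun x hx => by simpa [hd, mul_comm, regChar_of_ne_one (show x.1 ≠ 1 by simpa using hx)] using sum_irr_one_mul_apply x.1)
    (by nlinarith)
  replace h1 : ExcData C.normalizerMonoidHom.range (fun (χ : IrrCharacter G) (x : C) => χ.1 x) δ d ζ a Y := by convert h1
  replace h2 : (d - δ) ^ 2 + (Y.card - 1) * d ^ 2 + ∑ i with i ∉ Y, a i ^ 2 = Nat.card C.normalizerMonoidHom.range + 1 := by
    convert h2
  have h3 := h1.card
  have m0 : 0 < Nat.card C.normalizerMonoidHom.range := Nat.card_pos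
  have h4 : 4 * (n + 1) ≤ Y.card := by_contra fun k => by nlinarith
  have h5 : (0 : ℤ) ≤ ∑ i with i ∉ Y, a i ^ 2 := sum_nonneg fun _ _ => sq_nonneg _
  obtain rfl : d = 0 := by_contra fun k => by
    have := sq_pos_of_ne_zero k
    have := sq_nonneg (d - δ)
    zify at h4 mn
    nlinarith [mul_le_mul_of_nonneg_left (show 1 ≤ d ^ 2 by omega) (show (0 : ℤ) ≤ Y.card - 1 by omega)]
  refine ⟨δ, ζ, a, Y, h1, h4, ?_⟩
  rcases h1.sign with rfl | rfl <;> simpa [add_comm] using h2

end

theorem exc : EXC.{u} := fun G P _ _ _ _ C n h => by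
  classical
  have := Fintype.ofFinite G
  have := Fintype.ofFinite C
  have := comm h
  have := Classical.decEq (IrrCharacter G)
  obtain ⟨δ, ζ, a, Y, D, tn, sa⟩ := data h
  have fr := free h
  have mn := (cardE h).le.trans h.nx
  have big := h.big
  have n1 := n1 h
  have tm := D.card
  have m0 : 0 < Nat.card C.normalizerMonoidHom.range := Nat.card_pos
  have mN := (C.subgroupOf (normalizer C)).index_mul_card
  rw [Nat.card_congr (subgroupOfEquivOfLe le_normalizer).toEquiv, ← relIndex, ← cardE h] at mN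
  have cp := h.cp
  have fx := h.fx
  obtain ⟨m, hm⟩ : ∃ m, Nat.card C.normalizerMonoidHom.range = m := ⟨_, rfl⟩
  obtain ⟨c, hc⟩ : ∃ c, Nat.card C = c := ⟨_, rfl⟩
  have hc' : Fintype.card C = c := Nat.card_eq_fintype_card.symm.trans hc
  rw [hm] at mn tm m0 mN sa
  rw [hc] at big tm mN cp fx
  have c0 : (c : ℂ) ≠ 0 := Nat.cast_ne_zero.2 (by omega)
  have hπ := isCharacter_perm (G := G) P
  obtain ⟨M, hM⟩ := hπ.exists_eq_sum_nat
  have hM' : ∀ y, (Nat.card (MulAction.fixedBy P y) : ℂ) = ∑ i, M i * i.1 y := fun y => by simpa using congrFun hM y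
  have iM : ∀ i : IrrCharacter G, ∑ y, i.1 y * Nat.card (MulAction.fixedBy P y) = Nat.card G * M i := fun i => by
    rw [← classInner_sum_irr_left (fun i => M i) i, ← hM, hπ.classInner_comm i.2.isCharacter, card_mul_classInner]
    simp only [map_natCast]
  have rM := D.rel (fun i => M i) fun x hx => by
    simp only [mul_comm _ (M _ : ℂ), ← hM', Nat.cast_eq_zero]
    exact Nat.card_eq_zero.2 (.inl ⟨fun p => hx (Subtype.ext (h.sr x x.2 p p.2))⟩)
  simp only [Int.cast_zero, zero_mul, add_zero] at rM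
  have δ0 : (δ : ℂ) ≠ 0 := by rcases D.sign with e | e <;> simp [e]
  by_cases hY : ∀ j ∈ Y, M j = 0
  · refine .inr fun A hA x hx x' hx' x1 x1' => ?_
    have cf : IsClassFunction G fun y => ∑ p, A p (y • p) := fun y g => by
      simp only
      rw [← Equiv.sum_comp (MulAction.toPerm g)]; simp [mul_smul, hA]
    refine (cf.apply_eq_sum_irr x).trans ((sum_congr rfl fun i _ => ?_).trans (cf.apply_eq_sum_irr x').symm)
    by_cases hi : i ∈ Y
    · rw [classInner_def, tau0 i.2 (by rw [iM, hY i hi]; simp)]; simp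
    · rw [D.nonexc i hi ⟨x, hx⟩ (by simpa using x1), D.nonexc i hi ⟨x', hx'⟩ (by simpa using x1')]
  push Not at hY
  obtain ⟨j, hj, M0⟩ := hY
  have Mj : ∀ i ∈ Y, M i = M j := fun i hi => by exact_mod_cast mul_left_cancel₀ δ0 ((rM i hi).trans (rM j hj).symm)
  let R := fun y : G => ∀ x : C, x ≠ 1 → ¬ IsConj x.1 y
  have R1 : R 1 := fun x hx e => hx (Subtype.ext (isConj_one_left.1 e))
  have rR : ∀ y, R y → ∀ i ∈ Y, δ * i.1 y = ∑ i with i ∉ Y, a i * i.1 y := fun y hy i hi => by
    simpa using congrArg conj (D.rel (fun i => conj (i.1 y)) (fun x hx => sum_irr_mul_conj_of_not_isConj (hy x hx)) i hi)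
  have uR : ∀ y, R y → ∀ i ∈ Y, i.1 y = j.1 y := fun y hy i hi =>
    mul_left_cancel₀ δ0 ((rR y hy i hi).trans (rR y hy j hj).symm)
  choose d d0 hd using fun χ : IrrCharacter G => χ.2.exists_apply_one
  choose W hW using fun χ : IrrCharacter G => (χ.2.isCharacter.restrict C).exists_classInner_nat isCharacter_one
  replace hW : ∀ i : IrrCharacter G, ∑ x : C, i.1 x = c * W i := fun i => by rw [← hW, ← hc, card_mul_classInner]; simp
  have sp : ∀ f : C → ℂ, ∑ x, f x = f 1 + ∑ x with x ≠ 1, f x := fun f => by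
    rw [filter_ne', add_sum_erase _ _ (mem_univ 1)]
  have dj : ∀ i ∈ Y, d i = d j := fun i hi => by exact_mod_cast (hd i).symm.trans ((uR 1 R1 i hi).trans (hd j))
  have dW : ∀ i ∈ Y, (d i : ℤ) = δ * m + c * W i := fun i hi => by
    obtain ⟨μ, hμ, rfl⟩ := (D.mem i).1 hi
    have h1 := fr.sum_orbSum hμ
    have h2 := hW (ζ μ)
    rw [sp, fr.orbSum_one hμ, hm] at h1
    rw [sp, sum_congr rfl fun x hx => D.exc μ hμ x (mem_filter.1 hx).2] at h2
    simp only [Int.cast_zero, zero_add, ← mul_sum, OneMemClass.coe_one, hd] at h2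
    have : (d (ζ μ) : ℂ) = δ * m + c * W (ζ μ) := by linear_combination h2 - δ * h1
    exact_mod_cast this
  have W0 : ∀ i ∈ Y, W i = 0 := fun i hi => by_contra fun k => by
    have h1 : Fintype.card P = ∑ i, M i * d i := Nat.cast_injective (R := ℂ) (by simpa [hd] using hM' 1)
    have h2 : Y.card * d i ≤ n * c := le_trans (by
      rw [h1, ← smul_eq_mul, ← sum_const]
      exact (sum_le_sum fun l hl => by rw [Mj l hl, dj l hl, dj i hi]; exact Nat.le_mul_of_pos_left _ (by omega)).trans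
        (sum_le_sum_of_subset (subset_univ _))) cp
    have h3 := dW i hi
    have h4 : (c : ℤ) ≤ d i + n := by rcases D.sign with rfl | rfl <;> nlinarith [Nat.pos_of_ne_zero k]
    nlinarith
  obtain rfl : δ = 1 := D.sign.resolve_right fun e => by have := dW j hj; have := d0 j; simp [W0 j hj, e] at *; omega
  have dm : ∀ i ∈ Y, d i = m := fun i hi => by simpa [W0 i hi] using dW i hi
  have ex : ∀ μ ≠ 1, ∀ x : C, (ζ μ).1 x = orbSum C.normalizerMonoidHom.range μ x := fun μ hμ x => by
    by_cases hx : x = 1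
    · rw [hx, fr.orbSum_one hμ, OneMemClass.coe_one, hd, dm _ ((D.mem _).2 ⟨μ, hμ, rfl⟩), hm]
    · simpa using D.exc μ hμ x hx
  have u2 : ∀ y, R y → j.1 y = 0 ∨ j.1 y = m := by
    obtain ⟨i, hi, ij⟩ := exists_mem_ne (by omega : 1 < Y.card) j
    obtain ⟨N, hN⟩ := (i.2.isCharacter.mul j.2.isCharacter.star).exists_eq_sum_nat
    replace hN : ∀ y, i.1 y * conj (j.1 y) = ∑ l, N l * l.1 y := fun y => by simpa using congrFun hN y
    have h1 : ∑ l, N l * W l = 0 := by
      obtain ⟨μ, hμ, rfl⟩ := (D.mem i).1 hi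
      obtain ⟨ν, hν, rfl⟩ := (D.mem j).1 hj
      have : ∑ x : C, (ζ μ).1 x * conj ((ζ ν).1 x) = 0 := by
        simp only [ex μ hμ, ex ν hν, orbSum_eq_sum, map_sum, sum_mul_sum]
        rw [sum_comm]
        refine sum_eq_zero fun α hα => sum_comm.trans (sum_eq_zero fun β hβ => ?_)
        rw [sum_unitsHom_mul_conj, if_neg fun e => ij ((D.inj μ ν hμ hν).2
          ((mem_filter.1 hα).2.trans (e ▸ (mem_filter.1 hβ).2).symm))]
      simp only [hN] at this
      rw [sum_comm] at this
      simp only [← mul_sum, hW, mul_left_comm _ (c : ℂ), mul_eq_zero, c0, false_or] at this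
      exact_mod_cast this
    have h2 : m * m = ∑ l, N l * d l := Nat.cast_injective (R := ℂ) (by simpa [hd, dm i hi, dm j hj] using hN 1)
    have h3 : ∀ l ∉ Y, N l = 0 := fun l hl => by_contra fun k => by
      have h4 := hW l
      rw [(mul_eq_zero.1 (sum_eq_zero_iff.1 h1 l (mem_univ _))).resolve_left k, sp,
        sum_congr rfl fun x hx => D.nonexc l hl x (mem_filter.1 hx).2, OneMemClass.coe_one, hd, sum_const, filter_ne',
        card_erase_of_mem (mem_univ _), card_univ, hc', ← tm] at h4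
      have h5 : (d l : ℤ) + Y.card * m * a l = 0 := Int.cast_injective (α := ℂ) (by simpa using h4)
      have h6 : d l ≤ m * m := h2 ▸ (Nat.le_mul_of_pos_left _ (Nat.pos_of_ne_zero k)).trans
        (single_le_sum (f := fun l => N l * d l) (fun _ _ => Nat.zero_le _) (mem_univ l))
      have h7 := d0 l
      have h8 : m * m < Y.card * m := Nat.mul_lt_mul_of_pos_right (by omega) m0
      zify at h6 h7 h8
      rcases le_or_gt 0 (a l) with e | e <;> nlinarith
    have h4 : ∀ y, R y → j.1 y * conj (j.1 y) = (∑ l ∈ Y, (N l : ℂ)) * j.1 y := fun y hy => by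
      rw [← congrArg (· * conj (j.1 y)) (uR y hy i hi), hN, sum_mul, ← sum_subset (subset_univ Y) fun l _ hl => by simp [h3 l hl]]
      exact sum_congr rfl fun l hl => by rw [uR y hy l hl]
    have h5 := h4 1 R1
    rw [hd, dm j hj, map_natCast, mul_left_inj' (Nat.cast_ne_zero.2 m0.ne')] at h5
    refine fun y hy => or_iff_not_imp_left.2 fun k => ?_
    simpa using congrArg conj (mul_left_cancel₀ k ((h4 y hy).trans (show _ = _ * (m : ℂ) by rw [← h5, mul_comm])))
  let K := univ.filter fun y => R y ∧ j.1 y = m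
  have cc : (univ.filter fun μ : C →* ℂˣ => μ ≠ 1).card + 1 = c := by
    rw [filter_ne', card_erase_add_one (mem_univ _), card_univ, ← Nat.card_eq_fintype_card, card_unitsHom_comm, hc]
  have hK : ∀ y, ∑ i with i ∉ Y, a i * i.1 y + ∑ μ with μ ≠ 1, (ζ μ).1 y = if y ∈ K then (c * m : ℂ) else 0 := fun y => by
    by_cases hy : R y
    · rw [← rR y hy j hj, sum_congr rfl fun μ hμ => uR y hy _ ((D.mem _).2 ⟨μ, (mem_filter.1 hμ).2, rfl⟩), sum_const, ← cc]
      rcases u2 y hy with e | e <;> simp [K, e, hy, show (0 : ℂ) ≠ m by exact_mod_cast m0.ne, add_mul, add_comm]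
    obtain ⟨x, hx, e⟩ : ∃ x : C, x ≠ 1 ∧ IsConj x.1 y := by simpa only [R, not_forall, not_not, exists_prop] using hy
    have := Fintype.ofFinite C.normalizerMonoidHom.range
    have e1 : ∑ i with i ∉ Y, a i * i.1 y = m := (sum_congr rfl (g := fun i => (a i : ℂ) ^ 2) fun i hi => by
      rw [← i.2.isClassFunction.eq_of_isConj e, D.nonexc i (mem_filter.1 hi).2 x hx, ← sq]).trans (by exact_mod_cast sa)
    have e2 : ∀ φ : C.normalizerMonoidHom.range, ∑ μ : C →* ℂˣ with μ ≠ 1, (μ (φ.1 x) : ℂ) = -1 := fun φ => by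
      have := sum_unitsHom_apply_eq_zero (a := φ.1 x) (by simpa using hx)
      rw [← add_sum_erase _ _ (mem_univ 1), ← filter_ne'] at this
      exact eq_neg_of_add_eq_zero_right (by simpa using this)
    rw [if_neg fun k => hy (mem_filter.1 k).2.1, e1, sum_congr rfl fun μ hμ => by
      rw [← (ζ μ).2.isClassFunction.eq_of_isConj e, ex μ (mem_filter.1 hμ).2, fr.orbSum_eq (mem_filter.1 hμ).2], sum_comm]
    simp only [e2, sum_const, card_univ, ← Nat.card_eq_fintype_card, hm]; simp
  have sK : ∀ f : G → ℂ, ∑ i with i ∉ Y, a i * ∑ y, i.1 y * f y + ∑ μ with μ ≠ 1, ∑ y, (ζ μ).1 y * f y =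
      c * m * ∑ y ∈ K, f y := fun f => by
    simp only [mul_sum, ← mul_assoc]
    rw [sum_comm, sum_comm (s := filter _ _), ← sum_add_distrib]
    simp only [← sum_mul, ← add_mul, hK, ite_mul, zero_mul, sum_ite_mem, univ_inter]
  have o1 : irrOne G ∉ Y := fun k => c0 (by simpa [W0 _ k, hc', show ∀ x, (irrOne G).1 x = 1 from fun _ => rfl] using hW (irrOne G))
  have k1 : Nat.card G = c * m * K.card := by
    obtain ⟨x, hx⟩ := nt h
    have := sK 1
    have e : ∀ i : IrrCharacter G, i ≠ irrOne G → ∑ y, i.1 y = 0 := fun i hi => i.2.sum_eq_zero fun k => hi (Subtype.ext k)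
    simp only [Pi.one_apply, mul_one] at this
    rw [sum_eq_single (irrOne G) (fun i _ hi => by simp [e i hi]) (by simp [o1]), sum_eq_zero fun μ hμ => e _ fun k =>
      o1 (k ▸ (D.mem _).2 ⟨μ, (mem_filter.1 hμ).2, rfl⟩), ← D.nonexc _ o1 x hx] at this
    exact Nat.cast_injective (R := ℂ) (by simpa [irrOne] using this)
  have k2 : ∑ y ∈ K, Nat.card (MulAction.fixedBy P y) = K.card * c * M j := by
    have := sK fun y => Nat.card (MulAction.fixedBy P y)
    simp only [iM, mul_left_comm _ (Nat.card G : ℂ), ← mul_sum, ← rM j hj] at this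
    rw [sum_congr rfl fun μ hμ => by rw [Mj _ ((D.mem _).2 ⟨μ, (mem_filter.1 hμ).2, rfl⟩)], sum_const, k1, ← cc] at this
    have e : ((c * m : ℕ) : ℂ) ≠ 0 := Nat.cast_ne_zero.2 (Nat.mul_pos (by omega) m0).ne'
    rw [← cc] at e ⊢
    refine Nat.cast_injective (R := ℂ) (mul_left_cancel₀ e ?_)
    push_cast at this ⊢
    rw [← this, nsmul_eq_mul]; ring
  have K1 : 1 ∈ K := mem_filter.2 ⟨mem_univ _, R1, (hd j).trans (by rw [dm j hj])⟩
  have k3 : (K.erase 1).card < c := by
    have h1 := sum_le_card_nsmul (K.erase 1) (fun y => Nat.card (MulAction.fixedBy P y) + n) c fun y hy =>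
      fx y (ne_of_mem_erase hy)
    rw [← add_sum_erase _ _ K1, ← card_erase_add_one K1] at k2
    have h2 : Nat.card (MulAction.fixedBy P (1 : G)) ≤ n * c := by simpa using cp
    rw [sum_add_distrib, sum_const] at h1
    simp only [smul_eq_mul] at h1
    have := Nat.le_mul_of_pos_right (((K.erase 1).card + 1) * c) (Nat.pos_of_ne_zero M0)
    by_contra! k
    nlinarith [Nat.mul_le_mul_right n k]
  have k4 : K.erase 1 = ∅ := eq_empty_of_forall_notMem fun y hy => k3.not_ge (by
    obtain ⟨y1, hy⟩ := mem_erase.1 hy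
    obtain ⟨y2, y3⟩ := (mem_filter.1 hy).2
    rw [← hc', ← card_univ]
    refine card_le_card_of_injOn (fun x : C => x.1 * y * x.1⁻¹) (fun x _ => mem_erase.2 ⟨by simpa using y1, mem_filter.2
      ⟨mem_univ _, fun z hz e => y2 z hz (e.trans (isConj_iff.2 ⟨_, rfl⟩).symm), (j.2.isClassFunction y x).trans y3⟩⟩)
      fun x _ x' _ e => by_contra fun k => ?_
    refine y2 ⟨y, (h.cc _ (mul_mem (inv_mem x'.2) x.2) (fun e => k (Subtype.ext (inv_mul_eq_one.1 e).symm)) y).1 ?_⟩
      (by simpa using y1) (.refl _)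
    rw [← mul_right_inj x'.1, ← mul_left_inj x.1⁻¹, show x'.1 * (x'.1⁻¹ * x * y) * x.1⁻¹ = x * y * x.1⁻¹ by group,
      show x.1 * y * x.1⁻¹ = _ from e]; group)
  rw [← card_erase_add_one K1, k4] at k1
  exact .inl (normalizer_eq_top_iff.1 (eq_top_of_card_eq _ (by rw [k1, ← mN]; simp [mul_comm])))

end H5.SG
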