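/-
The eigenvalue estimate (chunk EST of notes/SG.md).
-/
import Cfsg.Agent.H5.SG1
import Cfsg.Agent.H19.Amb3

set_option autoImplicit false

namespace H5.SG
open _root_.Cfsg H5 H13.SG H21 Finset Subgroup Matrix
open scoped ComplexConjugate ComplexOrder

universe u
variable {G P : Type u} [Group G] [Fintype P] [MulAction G P] {C : Subgroup G} {n : ℕ}

/-- the square of the norm -/
noncomputable def nn (v : P → ℂ) : ℝ := ∑ x, ‖v x‖ ^ 2
theorem nn_nonneg (v : P → ℂ) : 0 ≤ nn v := sum_nonneg fun _ _ => sq_nonneg _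
theorem nn_coe (v : P → ℂ) : (nn v : ℂ) = ∑ x, v x * conj (v x) := by simp [nn, Complex.mul_conj']
theorem nn_eq (v : P → ℂ) : star v ⬝ᵥ v = nn v := by simp [nn_coe, dotProduct, mul_comm]
theorem nn_mul (B : Matrix P P ℂ) (v : P → ℂ) : star v ⬝ᵥ (Bᴴ * B) *ᵥ v = nn (B *ᵥ v) := by
  rw [← mulVec_mulVec, dotProduct_mulVec, ← star_mulVec, nn_eq]
theorem cs (f g : P → ℂ) : ‖∑ x, f x * g x‖ ^ 2 ≤ nn f * nn g :=
  (pow_le_pow_left₀ (norm_nonneg _) ((norm_sum_le _ _).trans (by simp)) 2).trans (sum_mul_sq_le_sq_mul_sq _ _ _)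

theorem spec (B : Matrix P P ℂ) (K : ℝ) (h : ∀ v ≠ 0, ∀ μ : ℝ, (Bᴴ * B) *ᵥ v = (μ : ℂ) • v → μ ≤ K) (v : P → ℂ) :
    nn (B *ᵥ v) ≤ K * nn v := by
  classical
  have hM : ((K : ℂ) • (1 : Matrix P P ℂ) - Bᴴ * B).IsHermitian :=
    IsHermitian.sub (by simp [IsHermitian]) (isHermitian_conjTranspose_mul_self B)
  have := (hM.posSemidef_iff_eigenvalues_nonneg.2 fun j => by
    have e := hM.mulVec_eigenvectorBasis j
    rw [sub_mulVec, smul_mulVec, one_mulVec] at e
    simpa using h (hM.eigenvectorBasis j) (fun e => hM.eigenvectorBasis.orthonormal.ne_zero j (by ext i; exact congrFun e i)) (K - hM.eigenvalues j) (by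
      rw [Complex.ofReal_sub, sub_smul, Complex.coe_smul (hM.eigenvalues j), ← e, sub_sub_cancel])).dotProduct_mulVec_nonneg v
  rw [sub_mulVec, smul_mulVec, one_mulVec, dotProduct_sub, dotProduct_smul, nn_eq, nn_mul, smul_eq_mul] at this
  exact_mod_cast sub_nonneg.1 this

theorem fra [Finite G] (h : AH P C n) (hN : ∀ y ∈ normalizer (C : Set G), ∀ x : P, ∃ c ∈ C, y • x = c • x) {v : P → ℂ}
    (k : ∀ y : G, ∀ c ∈ C, ∀ x, v (y • c • x) = v (y • x)) (g : G) (x : P) : v (g • x) = v x := by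
  open H19 in
  obtain ⟨z, z1⟩ := nt h
  obtain ⟨p, hp, d⟩ := Nat.exists_prime_and_dvd (mt orderOf_eq_one_iff.1 (show z.1 ≠ 1 by simpa using z1))
  obtain ⟨a, ha, ap⟩ := exists_orderOf_eq_prime hp (H := C) (d.trans (orderOf_dvd_card' z.2))
  have a1 : a ≠ 1 := fun e => hp.one_lt.ne (by simp [← ap, e])
  obtain ⟨Q, hQ, l⟩ := (PiN.of_card hp ((Nat.card_zpowers a).trans ap)).exists_syl (M := normalClosure C)
    (zpowers_le.2 (subset_normalClosure ha))
  replace l := l (mem_zpowers a)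
  obtain ⟨b, hb, b1⟩ := exists_ne_one (hQ.pi.center_ne_bot (ne_bot_of_mem l a1))
  have QC : Q ≤ C := fun y hy => (h.cc b ((h.cc a ha a1 b).1 (mem_cent.1 hb.2 a l).symm) b1 y).1 (mem_cent.1 hb.2 y hy)
  obtain ⟨s, hs, y, hy, rfl⟩ := (mem_sup_of_norm le_normalizer_of_normal).1 ((hQ.frattini normalIn_top).ge (mem_top g))
  obtain ⟨c, hc, e⟩ := hN y (ti h ha a1 (QC (conj_mem_of_norm hy.2 l))) x
  let H : Subgroup G := ⟨⟨⟨{g | ∀ (y : G) x, v (y • g • x) = v (y • x)}, fun {a b} ha hb y x => by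
    rw [mul_smul, ha, hb]⟩, fun y x => by simp⟩, fun {a} ha y x => by rw [← ha, smul_inv_smul]⟩
  have : H.Normal := ⟨fun a ha g y x => by simpa [mul_smul] using ha (y * g) (g⁻¹ • x)⟩
  simpa [mul_smul, e] using (normalClosure_le_normal (N := H) (fun c hc y => k y c hc) hs 1 (c • x)).trans (k 1 c hc x)

theorem dsum [Fintype C] (h : DD P C) {M : P → P → ℂ} (hM : ∀ (y : G) a b, M (y • a) (y • b) = M a b) {c : G} (hc : c ∈ C)
    (c1 : c ≠ 1) (f : C → ℂ) : ∑ d : C, ∑ d' : C, f (d⁻¹ * d') * ∑ y, M (d.1 • y) (d'.1 • y) =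
      Nat.card C * (f 1 * ∑ y, M y y + (∑ e, f e - f 1) * ∑ y, M y (c • y)) := by
  classical
  rw [Nat.card_eq_fintype_card, ← card_univ, ← nsmul_eq_mul, ← sum_const]
  refine sum_congr rfl fun d _ => ?_
  rw [← Equiv.sum_comp (Equiv.mulLeft d), ← add_sum_erase _ _ (mem_univ 1), ← add_sum_erase _ f (mem_univ 1), add_sub_cancel_left,
    sum_mul]
  simp only [Equiv.coe_mulLeft, inv_mul_cancel_left, Subgroup.coe_mul, mul_smul, hM, OneMemClass.coe_one, one_smul]
  exact congrArg _ (sum_congr rfl fun e he => by rw [h M hM e e.2 c hc (by simpa using ne_of_mem_erase he) c1])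

theorem est : H13.SG.EST.{u} := fun G P _ _ _ _ C n h hD _ hN Γ hΓ irr c hc c1 a => by
  classical
  have := Fintype.ofFinite C
  have := comm h
  have cp := h.cp
  have big := h.big
  have n1 := n1 h
  obtain ⟨k, hk⟩ : ∃ k, {b | Γ a b}.ncard = k := ⟨_, rfl⟩
  obtain ⟨F, hF⟩ : ∃ F, (univ.filter fun x => Γ x (c • x)).card = F := ⟨_, rfl⟩
  have eΓ : ∀ (y : G) a b, Γ (y • a) (y • b) ↔ Γ a b := fun y a b => ⟨fun k => by simpa using hΓ y⁻¹ _ _ k, hΓ y a b⟩
  let A : Matrix P P ℂ := of fun x y => if Γ x y then 1 else 0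
  have eA : ∀ (y : G) a b, A (y • a) (y • b) = A a b := fun y a b => by simp [A, eΓ]
  have row : ∀ x, ∑ y, A x y = k := fun x => by
    obtain ⟨g, rfl⟩ := MulAction.exists_smul_eq G a x
    rw [← Equiv.sum_comp (MulAction.toPerm g), ← hk, Set.ncard_eq_toFinset_card']
    simp [A, eΓ]
  have P0 : (Fintype.card P : ℂ) ≠ 0 := Nat.cast_ne_zero.2 (Fintype.card_pos_iff.2 ⟨a⟩).ne'
  have c0 : (0 : ℝ) < Nat.card C := Nat.cast_pos.2 Nat.card_pos
  let B : Matrix P P ℂ := A - of fun (_ _ : P) => (k / Fintype.card P : ℂ)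
  have eB : ∀ (y : G) a b, B (y • a) (y • b) = B a b := fun y a b => by simp [B, eA]
  have sp := spec B (n * k) fun v v0 μ e => by_contra fun lt => by
    have μ0 : (μ : ℂ) ≠ 0 := Complex.ofReal_ne_zero.2 ((not_le.1 lt).trans_le' (by positivity)).ne'
    have s0 : ∀ v, (Bᴴ * B) *ᵥ v = (μ : ℂ) • v → ∑ x, v x = 0 := fun v e => by
      have := congrArg (fun w => ∑ x, w x) e
      simp only [← mulVec_mulVec, Pi.smul_apply, smul_eq_mul, ← mul_sum] at this
      refine (mul_eq_zero.1 (this.symm.trans ?_)).resolve_left μ0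
      simp only [mulVec, dotProduct, conjTranspose_apply]
      rw [sum_comm]
      refine sum_eq_zero fun y _ => ?_
      rw [← sum_mul, ← star_sum]
      simp [B, row, mul_div_cancel₀ _ P0]
    have tr : ∀ (g : G) v, (Bᴴ * B) *ᵥ v = (μ : ℂ) • v → (Bᴴ * B) *ᵥ (fun x => v (g • x)) = (μ : ℂ) • fun x => v (g • x) :=
      fun g v e => funext fun x => Eq.trans (by
        simp only [mulVec, dotProduct, mul_apply, conjTranspose_apply]
        rw [← Equiv.sum_comp (MulAction.toPerm g) fun y => _ * v y]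
        refine sum_congr rfl fun y _ => congrArg (· * _) ?_
        rw [← Equiv.sum_comp (MulAction.toPerm g) fun z => _ * B z (MulAction.toPerm g y)]
        simp [eB]) (congrFun e (g • x))
    obtain ⟨g, hg⟩ : ∃ g : G, ¬ ∀ d ∈ C, ∀ x, v (g • d • x) = v (g • x) := by_contra fun k => by
      have k' := fra h hN (not_exists_not.1 k)
      have k2 : ∀ x, v x = v a := fun x => let ⟨g, e⟩ := MulAction.exists_smul_eq G a x; e ▸ k' g a
      have := s0 v e
      simp only [k2, sum_const, card_univ, nsmul_eq_mul, mul_eq_zero, P0, false_or] at this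
      exact v0 (funext fun x => (k2 x).trans this)
    replace e := tr g v e
    let z : (C →* ℂˣ) → P → ℂ := fun l x => ∑ d : C, l d * v (g • d.1 • x)
    have zd : ∀ l (d : C) x, z l (d.1 • x) = l d⁻¹ * z l x := fun l d x => by
      simp only [z, mul_sum]
      rw [← Equiv.sum_comp (Equiv.mulRight d⁻¹)]
      simp [mul_smul, mul_comm, mul_assoc]
    obtain ⟨l, l1, z0⟩ : ∃ l ≠ 1, z l ≠ 0 := by_contra fun k => hg fun d hd x => by
      have k' : ∀ x, z 1 x = Nat.card C * v (g • x) := fun x => by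
        rw [← sum_eq_single (f := fun l => z l x) (s := univ) 1 (fun l _ l1 => congrFun (not_not.1 fun e => k ⟨l, l1, e⟩) x) (by simp)]
        simp only [z]
        rw [sum_comm]
        simp [← sum_mul, sum_unitsHom_apply]
      have := zd 1 ⟨d, hd⟩ x
      simpa [k', Nat.card_pos.ne'] using this
    have ez : (Bᴴ * B) *ᵥ z l = (μ : ℂ) • z l := by
      have : z l = ∑ d : C, (l d : ℂ) • fun x => v (g • d.1 • x) := by ext; simp [z]
      rw [this, mulVec_sum, smul_sum]
      exact sum_congr rfl fun d _ => by rw [mulVec_smul, tr d.1 _ e, smul_comm]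
    have e1 : nn (B *ᵥ z l) = μ * nn (z l) :=
      Complex.ofReal_injective ((nn_mul B _).symm.trans (by rw [ez, dotProduct_smul, nn_eq, smul_eq_mul, Complex.ofReal_mul]))
    let b : P → P → ℂ := fun x y => ∑ d : C, l d⁻¹ * A x (d.1 • y)
    have e2 : ∀ x, Nat.card C * (B *ᵥ z l) x = ∑ y, b x y * z l y := fun x => by
      simp only [b, sum_mul]
      rw [sum_comm, Nat.card_eq_fintype_card, ← card_univ, ← nsmul_eq_mul, ← sum_const]
      refine sum_congr rfl fun d _ => ?_
      rw [show B = _ from rfl, sub_mulVec]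
      simp only [Pi.sub_apply, mulVec, dotProduct, of_apply, ← mul_sum, s0 _ ez, mul_zero, sub_zero]
      rw [← Equiv.sum_comp (MulAction.toPerm d.1)]
      exact sum_congr rfl fun y _ => by rw [MulAction.toPerm_apply, zd]; ring
    have e3 : ∑ x, nn (b x) ≤ Nat.card C * (Fintype.card P * k) := by
      have h1 := dsum hD (M := fun y y' => ∑ x, A x y * A x y') (fun y a b => by
        rw [← Equiv.sum_comp (MulAction.toPerm y)]; simp [eA]) hc c1 fun d => l d
      have h2 : ∑ y, ∑ x, A x y * A x y = Fintype.card P * k := by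
        rw [sum_comm, sum_congr rfl (g := fun _ => (k : ℂ)) fun x _ => row x ▸ sum_congr rfl fun y _ => by
          simp only [A, of_apply]; split_ifs <;> simp]; simp
      obtain ⟨s, h3⟩ : ∃ s : ℕ, ∑ y, ∑ x, A x y * A x (c • y) = s := ⟨∑ y, ∑ x, if Γ x y ∧ Γ x (c • y) then 1 else 0, by
        push_cast
        exact sum_congr rfl fun y _ => sum_congr rfl fun x _ => by simp only [A, of_apply, ite_and]; split_ifs <;> simp⟩
      have h4 : ((∑ x, nn (b x) : ℝ) : ℂ) = ∑ d : C, ∑ d' : C, l (d⁻¹ * d') * ∑ y, ∑ x, A x (d.1 • y) * A x (d'.1 • y) := by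
        simp only [Complex.ofReal_sum, nn_coe, b, map_sum, sum_mul_sum]
        simp only [mul_sum, map_mul, conj_unitsHom, inv_inv]
        rw [sum_comm, sum_congr rfl fun _ _ => sum_comm, sum_comm]
        refine sum_congr rfl fun d _ => ?_
        rw [sum_congr rfl fun _ _ => sum_comm, sum_comm]
        refine sum_congr rfl fun d' _ => sum_congr rfl fun y _ => sum_congr rfl fun x _ => ?_
        simp only [A, of_apply, apply_ite conj, map_one, map_zero, Units.val_mul]; ring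
      rw [h1, h2, h3, sum_unitsHom_eq_zero l1, map_one, Units.val_one] at h4
      rw [Complex.ofReal_injective (h4.trans (by push_cast; rfl)
        : _ = ((Nat.card C * (1 * (Fintype.card P * k) + (0 - 1) * s) : ℝ) : ℂ))]
      exact mul_le_mul_of_nonneg_left (by simp) c0.le
    have e4 : Nat.card C ^ 2 * nn (B *ᵥ z l) ≤ (∑ x, nn (b x)) * nn (z l) := by
      rw [nn, mul_sum, sum_mul]
      exact sum_le_sum fun x _ => by simpa [← e2, mul_pow] using cs (b x) (z l)
    have e5 : 0 < nn (z l) := (nn_nonneg _).lt_of_ne fun e => z0 (dotProduct_star_self_eq_zero.1 (by simp [nn_eq, ← e]))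
    have e6 : (Fintype.card P : ℝ) ≤ n * Nat.card C := by exact_mod_cast cp
    rw [e1, ← mul_assoc] at e4
    have := (le_of_mul_le_mul_right e4 e5).trans e3
    nlinarith [mul_le_mul_of_nonneg_right e6 (Nat.cast_nonneg k), mul_lt_mul_of_pos_left (not_le.1 lt) (pow_pos c0 2)]
  have key : (((Nat.card C : ℝ) - 1) * F - Nat.card C * k) ^ 2 ≤ n ^ 3 * k * Nat.card C ^ 2 := by
    let w : P → P → ℂ := fun x y => ∑ d : C, if d.1 • x = y then 1 else 0
    have h0 : ∀ x (f : P → ℂ), ∑ y, w x y * f y = ∑ d : C, f (d.1 • x) := fun x f => by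
      simp only [w, sum_mul]; rw [sum_comm]; simp
    have h1 : ∀ x, nn (w x) = Nat.card C := fun x => Complex.ofReal_injective (by
      rw [nn_coe, h0, sum_congr rfl (g := fun _ => 1) fun d _ => by
        simp only [w]
        rw [sum_eq_single d (fun e _ ne => if_neg fun k => ne (Subtype.ext (inv_mul_eq_one.1
          (h.sr _ (mul_mem (inv_mem d.2) e.2) x (by rw [mul_smul, k, inv_smul_smul]))).symm)) (by simp)]
        simp]
      simp)
    have h2 := dsum hD eB hc c1 1
    have h3 : ∑ x, 1 * ∑ y, w x y * (B *ᵥ w x) y = ∑ d : C, ∑ d' : C, ∑ y, B (d.1 • y) (d'.1 • y) := by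
      simp only [h0, mulVec, dotProduct, mul_comm (B _ _), one_mul]
      rw [sum_comm]
      exact sum_congr rfl fun _ _ => sum_comm
    have h4 := (cs (fun _ => 1) fun x => ∑ y, w x y * (B *ᵥ w x) y).trans (mul_le_mul_of_nonneg_left (sum_le_sum fun x _ =>
      (cs _ _).trans (mul_le_mul_of_nonneg_left (sp (w x)) (nn_nonneg _))) (nn_nonneg _))
    simp only [Pi.one_apply, one_mul] at h2
    have h5 : ∑ y, B y y = -k := by simp [B, A, irr, mul_div_cancel₀ _ P0]
    have h6 : ∑ y, B y (c • y) = F - k := by simp [B, A, hF, mul_div_cancel₀ _ P0]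
    rw [h3, h2, h5, h6, sum_const, card_univ, ← Nat.card_eq_fintype_card, nsmul_eq_mul, mul_one,
      show (Nat.card C * (-k + (Nat.card C - 1) * (F - k)) : ℂ) = (Nat.card C * ((Nat.card C - 1) * F - Nat.card C * k) : ℝ) by
        push_cast; ring, Complex.norm_real, Real.norm_eq_abs, sq_abs] at h4
    simp only [h1] at h4
    simp only [nn, norm_one, one_pow, sum_const, card_univ, nsmul_eq_mul, mul_one] at h4
    have e6 : (Fintype.card P : ℝ) ^ 2 ≤ (n * Nat.card C) ^ 2 := by exact_mod_cast Nat.pow_le_pow_left cp 2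
    refine le_of_mul_le_mul_left ?_ (pow_pos c0 2)
    nlinarith [mul_le_mul_of_nonneg_right e6 (show (0 : ℝ) ≤ n * k * Nat.card C ^ 2 by positivity)]
  rw [hk]
  refine ⟨fun h0 => ?_, fun h1 ⟨x, hx⟩ => by_contra fun lt => ?_⟩
  · obtain rfl : F = 0 := hF ▸ card_eq_zero.2 (filter_eq_empty_iff.2 fun x _ => h0 x)
    have : (k : ℝ) * k ≤ n ^ 3 * k := le_of_mul_le_mul_right (by simpa [mul_pow, sq, mul_comm, mul_left_comm, mul_assoc] using key) (pow_pos c0 2)
    rcases k.eq_zero_or_pos with rfl | k0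
    · simp
    · exact_mod_cast le_of_mul_le_mul_right this (Nat.cast_pos.2 k0)
  have h2 : Nat.card C ≤ F := by
    rw [← hF, Nat.card_eq_fintype_card, ← card_univ]
    refine card_le_card_of_injOn (fun d => d.1 • x) (fun d _ => mem_filter.2 ⟨mem_univ _, ?_⟩) fun d _ e _ k => Subtype.ext
      (inv_mul_eq_one.1 (h.sr _ (mul_mem (inv_mem d.2) e.2) x (by rw [mul_smul, ← show d.1 • x = e.1 • x from k, inv_smul_smul])))
    rw [smul_smul, ← (h.cc c hc c1 d).2 d.2, mul_smul]; exact hΓ _ _ _ hx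
  have h3 := (not_lt.1 lt).trans cp
  generalize Nat.card C = m at *
  have h4 : (m - 1 - k : ℝ) ^ 2 ≤ n ^ 3 * k := by
    have : (k : ℝ) + 1 ≤ m := by exact_mod_cast (show k < m by nlinarith)
    refine le_of_mul_le_mul_right (le_trans ?_ key) (pow_pos c0 2)
    rw [← mul_pow]
    refine pow_le_pow_left₀ (mul_nonneg (by linarith) c0.le) ?_ 2
    nlinarith [mul_le_mul_of_nonneg_left (Nat.cast_le (α := ℝ).2 h2) (show (0 : ℝ) ≤ m - 1 by linarith [Nat.cast_nonneg (α := ℝ) k])]
  have h5 : ((n : ℝ) + 1) * k ≤ n * m := by exact_mod_cast h3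
  have h6 : 4 * ((n : ℝ) + 1) ≤ m := by exact_mod_cast (show 4 * (n + 1) ≤ m by nlinarith)
  have h7 : (3 * m / 4 : ℝ) ^ 2 ≤ ((n + 1) * (m - 1 - k)) ^ 2 := pow_le_pow_left₀ (by positivity) (by linarith) 2
  have h8 : 9 * m ≤ 16 * (n + 1) * n ^ 4 := by
    have : (9 * m : ℝ) * m ≤ 16 * (n + 1) * n ^ 4 * m := by
      nlinarith [mul_le_mul_of_nonneg_left h4 (sq_nonneg ((n : ℝ) + 1)),
        mul_le_mul_of_nonneg_left h5 (show (0 : ℝ) ≤ (n + 1) * n ^ 3 by positivity)]
    exact_mod_cast le_of_mul_le_mul_right this c0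
  rcases n1.eq_or_lt with rfl | n2
  · omega
  have h9 : 9 * n ^ 6 ≤ 16 * (n + 1) := le_of_mul_le_mul_right (a := n ^ 4) (by nlinarith) (by positivity)
  nlinarith [Nat.mul_le_mul_left n (Nat.pow_le_pow_left n2 5)]

end H5.SG
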