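/-
The bridge (chunk BR of notes/SG.md).
-/
import Cfsg.Agent.H5.SG2
import Cfsg.Agent.H13.SG1

set_option autoImplicit false
set_option linter.unusedSectionVars false

namespace H5.SG
open H13.SG H13.R3 Module MulAction Projectivization Subgroup
open scoped LinearAlgebra.Projectivization

universe u

theorem cov {G α : Type*} [Group G] [MulAction G α] (C : Subgroup G) [Finite C] {S : Set α} {n : ℕ} (b : ℕ → α)
    (h : ∀ x ∈ S, ∃ i < n, ∃ c ∈ C, x = c • b i) : S.ncard ≤ n * Nat.card C :=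
  (Set.ncard_le_ncard (t := Set.range fun p : Fin n × C => p.2.1 • b p.1) fun x hx =>
    let ⟨i, hi, c, hc, e⟩ := h x hx; ⟨(⟨i, hi⟩, ⟨c, hc⟩), e.symm⟩).trans ((Finite.card_range_le _).trans (by simp))

theorem ar {q n N c : ℕ} (q2 : 2 ≤ q) (n13 : 13 ≤ n) (hN : q ^ n = N * (q - 1) + 1) (h : N ≤ c ∨ n < q ∧ N ≤ n * c) {f : ℕ}
    (hf : f * (q - 1) + 2 ≤ q ^ (n - 1) + q) : f + n ≤ c := by
  obtain ⟨r, rfl⟩ : ∃ r, q = r + 1 := ⟨q - 1, by omega⟩
  obtain ⟨m, rfl⟩ : ∃ m, n = m + 1 := ⟨n - 1, by omega⟩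
  simp only [Nat.add_sub_cancel] at *
  rw [pow_succ] at hN
  rcases h with h | ⟨h1, h⟩
  · have : m + 2 ≤ (r + 1) ^ m := le_trans (by
      obtain ⟨m, rfl⟩ : ∃ k, m = k + 2 := ⟨m - 2, by omega⟩
      have := m.lt_two_pow_self
      rw [pow_add]; omega) (Nat.pow_le_pow_left q2 m)
    exact le_of_mul_le_mul_right (a := r) (by nlinarith [Nat.mul_le_mul_right r h, Nat.mul_le_mul_right r this]) (by omega)
  have h2 : (r + 1) ^ 3 ≤ (r + 1) ^ m := Nat.pow_le_pow_right (by omega) (by omega)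
  have h3 : (m + 1) * (m + 2) * r ≤ (r + 1) ^ 3 := by
    nlinarith [Nat.mul_le_mul_right r (Nat.mul_le_mul (show m + 1 ≤ r by omega) (show m + 2 ≤ r + 1 by omega))]
  exact le_of_mul_le_mul_right (a := (m + 1) * r) (by
    nlinarith [Nat.mul_le_mul_right r h, Nat.mul_le_mul_left (m + 1) hf,
      Nat.mul_le_mul_left ((r + 1) ^ m) (show m + 2 ≤ r + 1 by omega)]) (Nat.mul_pos (by omega) (by omega))

theorem ar2 (m : ℕ) : 4 * (m + 13) * (m + 13 + 1) ≤ 2 ^ (m + 11) := by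
  induction m with
  | zero => norm_num
  | succ m ih => rw [show m + 1 + 11 = m + 11 + 1 by omega, pow_succ]; nlinarith

variable {F : Type u} [Field F] [Fintype F] {K : Type u} [Field K] [Fintype K] [Algebra F K]
  {J : Subgroup (K ≃ₗ[F] K)} {d x y : K} {i j : J}

theorem cnt (T : Set (ℙ F K)) : {x | ∃ hx, mk F x hx ∈ T}.ncard = T.ncard * (Fintype.card F - 1) := by
  have k : ∀ (X : ℙ F K) (s : Fˣ), mk F (s • X.rep) ((smul_ne_zero_iff_ne s).2 X.rep_nonzero) = X := fun X s =>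
    ((mk_eq_mk_iff _ _ _ _ _).2 ⟨s, rfl⟩).trans X.mk_rep
  rw [← Nat.card_eq_fintype_card, ← Nat.card_units, ← Set.ncard_univ, ← Set.ncard_prod,
    ← Set.ncard_image_of_injective (f := fun p : ℙ F K × Fˣ => p.2 • p.1.rep) _ fun ⟨X, s⟩ ⟨Y, t⟩ e => by
      dsimp only at e
      obtain rfl : X = Y := by rw [← k X s, ← k Y t]; congr 1
      rw [Units.ext (smul_left_injective F X.rep_nonzero e)]]
  congr 1; ext x
  refine ⟨fun ⟨hx, h⟩ => ?_, by rintro ⟨⟨X, s⟩, h, rfl⟩; exact ⟨_, (k X s).symm ▸ h.1⟩⟩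
  obtain ⟨s, e⟩ := exists_smul_eq_mk_rep F x hx
  exact ⟨(_, s⁻¹), ⟨h, trivial⟩, inv_smul_eq_iff.2 e.symm⟩

variable (J) in
/-- the image in the projective group -/
abbrev GB := (toPermHom J (ℙ F K)).range
variable (J) in
def pr : J →* GB J := (toPermHom J (ℙ F K)).rangeRestrict
variable (J) in
/-- the multiplications -/
def DJ : Subgroup J where
  carrier := {j | ∃ c, ∀ x, j.1 x = c * x}
  one_mem' := ⟨1, fun x => by simp⟩
  mul_mem' := fun ⟨c, e⟩ ⟨d, e'⟩ => ⟨c * d, fun x => by rw [mul_assoc, ← e', ← e]; rfl⟩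
  inv_mem' := fun {j} ⟨c, e⟩ => ⟨c⁻¹, fun x => j.1.injective (by
    rw [e (_ * _), mul_inv_cancel_left₀ (Mu.ne0 ⟨j.1, j.2, e⟩)]; simp)⟩
variable (J) in
abbrev CB := (DJ J).map (pr J)

theorem pr_sur : Function.Surjective (pr J) := MonoidHom.rangeRestrict_surjective _
theorem pr_mk (hx : x ≠ 0) : pr J j • mk F x hx = mk F (j.1 x) (j.1.map_ne_zero_iff.2 hx) := rfl
theorem pr_one : pr J j = 1 ↔ ∃ s : F, ∀ x, j.1 x = s • x := by
  refine ⟨fun h => (LinearMap.exists_eq_smul_id_of_forall_notLinearIndependent (f := (j.1 : K →ₗ[F] K)) fun v k => ?_).imp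
    fun s e x => by simpa using LinearMap.congr_fun e x, fun ⟨s, e⟩ => Subtype.ext (Equiv.ext (Projectivization.ind fun x hx =>
      (pr_mk hx).trans ((mk_eq_mk_iff' _ _ _ _ _).2 ⟨s, (e x).symm⟩)))⟩
  obtain ⟨s, e⟩ := (mk_eq_mk_iff' _ _ _ _ _).1 ((pr_mk (k.ne_zero 0)).symm.trans (h ▸ one_smul _ _))
  simpa using (LinearIndependent.pair_iff.1 k s (-1) (by simpa [add_neg_eq_zero] using e)).2
theorem pr_eq (h : pr J i = pr J j) : ∃ s : F, ∀ x, i.1 x = s • j.1 x :=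
  (pr_one.1 (show pr J (i * j⁻¹) = 1 by simp [h])).imp fun s e x => by simpa using e (j.1 x)
theorem pr_mu (e : ∀ x, j.1 x = d * x) : pr J j = 1 ↔ d ∈ F ∙ (1 : K) := pr_one.trans
  ⟨fun ⟨s, k⟩ => Submodule.mem_span_singleton.2 ⟨s, by rw [← k, e, mul_one]⟩, fun h =>
    let ⟨s, k⟩ := mem_one.1 h; ⟨s, fun x => by rw [e, ← k, Algebra.smul_def]⟩⟩
theorem ex_c (h : Mu J d) : ∃ c ∈ CB J, (c = 1 ↔ d ∈ F ∙ (1 : K)) ∧ ∀ x hx, c • mk F x hx = mk F (d * x) (mul_ne_zero h.ne0 hx) :=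
  let ⟨j, hj, e⟩ := h
  ⟨_, ⟨⟨j, hj⟩, ⟨d, e⟩, rfl⟩, pr_mu e, fun x hx => by rw [pr_mk]; congr 1; exact e x⟩

variable (hy : H13.SG.Hy J)
include hy

theorem nor {c : GB J} (hc : c ∈ CB J) (c1 : c ≠ 1) (h : pr J j ∈ normalizer (CB J : Set (GB J))) :
    ∃ a i, i < finrank F K ∧ Mu J a ∧ ∀ x, j.1 x = a * x ^ Fintype.card F ^ i := by
  obtain ⟨i, ⟨d', e'⟩, k⟩ := (h c).1 hc
  obtain ⟨l, ⟨d, e⟩, rfl⟩ := hc
  rw [← map_inv, ← map_mul, ← map_mul] at k
  obtain ⟨s, k⟩ := pr_eq k.symm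
  exact hy.mon_of j.2 (mt (pr_mu e).2 c1) (d' := s • d') fun x => by simpa [e, e'] using k (j.1 x)

theorem sz {f : ℕ} (hf : f * (Fintype.card F - 1) + 2 ≤ Fintype.card F ^ (finrank F K - 1) + Fintype.card F) :
    Nat.card (ℙ F K) ≤ finrank F K * Nat.card (CB J) ∧ f + finrank F K ≤ Nat.card (CB J) := by
  have : Nat.card (ℙ F K) ≤ Nat.card (CB J) ∨
      finrank F K < Fintype.card F ∧ Nat.card (ℙ F K) ≤ finrank F K * Nat.card (CB J) := by
    rw [← Set.ncard_univ]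
    by_cases h : finrank F K ∣ Fintype.card F - 1
    · obtain ⟨β, -, -, β0, -, k⟩ := hy.ex_beta h
      refine .inr ⟨hy.lt_q h, cov _ (fun i => mk F (β ^ i) (pow_ne_zero i β0)) (Projectivization.ind fun x hx _ => ?_)⟩
      obtain ⟨i, hi, d, hd, rfl⟩ := k x hx
      obtain ⟨c, hc, -, e⟩ := ex_c hd
      exact ⟨i, hi, c, hc, (e _ _).symm⟩
    refine .inl ((cov (n := 1) _ (fun _ => mk F 1 one_ne_zero) (Projectivization.ind fun x hx _ => ?_)).trans_eq (one_mul _))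
    obtain ⟨c, hc, -, e⟩ := ex_c (hy.mu_all h hx)
    exact ⟨0, one_pos, c, hc, by simp [e]⟩
  exact ⟨this.elim (fun h => h.trans (Nat.le_mul_of_pos_left _ hy.pr.pos)) (·.2), ar (q2 F) hy.n13 (by
    rw [← card_V F K, card' F K, Nat.card_eq_fintype_card (α := F)]) this hf⟩

theorem sz' : Fintype.card F ^ (finrank F K - 2) + finrank F K ≤ Nat.card (CB J) := (sz hy (by
  have := q2 F
  have := hy.n13
  rw [show finrank F K - 1 = finrank F K - 2 + 1 by omega, pow_succ]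
  exact add_le_add (Nat.mul_le_mul_left _ (by omega)) (q2 F))).2

theorem ah [Fintype (ℙ F K)] : AH (ℙ F K) (CB J) (finrank F K) where
  fa k h := Subtype.ext (Equiv.ext h)
  cc := by
    rintro _ ⟨l, ⟨d, e⟩, rfl⟩ c1 y
    obtain ⟨j, rfl⟩ := pr_sur y
    refine ⟨fun h => ?_, fun ⟨i, ⟨c, k⟩, h⟩ => by
      rw [← h, ← map_mul, ← map_mul]; congr 1; ext x; simp [e, k, mul_left_comm]⟩
    obtain ⟨s, k⟩ := pr_eq ((map_mul _ _ _).trans (h.trans (map_mul _ _ _).symm))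
    have h1 : s ^ finrank F K = 1 := by
      have := congrArg LinearMap.det (show (j.1 : K →ₗ[F] K) ∘ₗ l.1 = s • ((l.1 : K →ₗ[F] K) ∘ₗ j.1) from LinearMap.ext k)
      rw [LinearMap.det_smul, LinearMap.det_comp, LinearMap.det_comp, mul_comm, eq_comm] at this
      exact (mul_eq_right₀ (mul_ne_zero l.1.isUnit_det'.ne_zero j.1.isUnit_det'.ne_zero)).1 this
    have h2 : ∀ m x, j.1 (d ^ m * x) = s ^ m • (d ^ m * j.1 x) := fun m => by
      induction m with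
      | zero => simp
      | succ m ih =>
        intro x
        have := k x
        simp only [Subgroup.coe_mul, LinearEquiv.mul_apply, e] at this
        rw [pow_succ, mul_assoc, ih, this, mul_smul_comm, smul_smul, ← mul_assoc, ← pow_succ, ← pow_succ]
    exact ⟨j, ⟨_, hy.mu_of_comm (mt (hy.kl ⟨l, l.2, e⟩) (mt (pr_mu e).2 c1)) fun x => by rw [h2, h1, one_smul]⟩, rfl⟩
  sr := by
    rintro _ ⟨l, ⟨d, e⟩, rfl⟩
    refine Projectivization.ind fun x hx h => ?_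
    obtain ⟨s, k⟩ := (mk_eq_mk_iff' _ _ _ _ _).1 ((pr_mk hx).symm.trans h)
    exact (pr_mu e).2 (mem_one.2 ⟨s, mul_right_cancel₀ hx (by rw [← Algebra.smul_def, k, e])⟩)
  nx := by
    have : Nontrivial (CB J) := Finite.one_lt_card_iff_nontrivial.1 (by have := sz' hy; have := hy.n13; omega)
    obtain ⟨c, c1⟩ := exists_ne (1 : CB J)
    choose f hf e using hy.fr_pow
    refine le_of_mul_le_mul_left ((H19.card_mul_relIndex le_normalizer).trans_le ((cov (CB J) (fun i => pr J ⟨f i, hf i⟩)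
      fun y hy' => ?_).trans_eq (mul_comm _ _))) Nat.card_pos
    obtain ⟨j, rfl⟩ := pr_sur y
    obtain ⟨a, i, hi, ⟨l, hl, k⟩, k'⟩ := nor hy c.2 (by simpa using c1) hy'
    exact ⟨i, hi, _, ⟨⟨l, hl⟩, ⟨a, k⟩, rfl⟩, by rw [smul_eq_mul, ← map_mul]; congr 1; ext x; simp [k, k', e]⟩
  cp := Nat.card_eq_fintype_card.symm.trans_le (sz hy (f := 0) (by have := q2 F; omega)).1
  big := by
    have h := sz' hy
    obtain ⟨m, e⟩ : ∃ m, finrank F K = m + 13 := ⟨_, (Nat.sub_add_cancel hy.n13).symm⟩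
    have := (ar2 m).trans (Nat.pow_le_pow_left (q2 F) _)
    rw [e] at h ⊢
    exact lt_of_lt_of_le (Nat.lt_add_of_pos_right (by omega) |> this.trans_lt) h
  fx k k1 := by
    obtain ⟨j, rfl⟩ := pr_sur k
    refine (sz hy ?_).2
    rw [← cnt]
    have q := q2 F
    by_cases h : ∃ (s : F) (x : K), x ≠ 0 ∧ s • x = j.1 x
    swap
    · rw [Set.eq_empty_of_forall_notMem (s := {x | ∃ hx, mk F x hx ∈ {x | pr J j • x = x}}) fun x ⟨hx, k⟩ =>
        let ⟨s, e⟩ := (mk_eq_mk_iff' _ _ _ _ _).1 ((pr_mk hx).symm.trans k); h ⟨s, x, hx, e⟩, Set.ncard_empty]; omega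
    obtain ⟨s, x, hx, e⟩ := h
    let T : K →ₗ[F] K := j.1 - s • 1
    obtain ⟨a, ha⟩ := Nat.exists_eq_add_one_of_ne_zero (mt Submodule.finrank_eq_zero.1
      ((Submodule.ne_bot_iff (LinearMap.ker T)).2 ⟨x, by simp [T, e], hx⟩))
    obtain ⟨b, hb⟩ := Nat.exists_eq_add_one_of_ne_zero (mt Submodule.finrank_eq_zero.1 (mt LinearMap.range_eq_bot.1
      fun k : T = 0 => k1 (pr_one.2 ⟨s, fun x => by simpa [T, sub_eq_zero] using LinearMap.congr_fun k x⟩)))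
    have h1 := (Set.ncard_le_ncard (s := {x | ∃ hx, mk F x hx ∈ {x | pr J j • x = x}})
      (t := {u | u ∈ LinearMap.ker T ∧ u ≠ 0} ∪ {u | u ∈ LinearMap.range T ∧ u ≠ 0}) fun y ⟨hy, k⟩ => by
        obtain ⟨t, e⟩ := (mk_eq_mk_iff' _ _ _ _ _).1 ((pr_mk hy).symm.trans k)
        by_cases ts : t = s
        · exact .inl ⟨by simp [T, ← e, ts], hy⟩
        exact .inr ⟨⟨(t - s)⁻¹ • y, by simp [T, ← e, ← sub_smul, sub_ne_zero.2 ts]⟩, hy⟩).trans (Set.ncard_union_le _ _)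
    rw [ncard_ne0, ncard_ne0, ha, hb] at h1
    rw [← T.finrank_range_add_finrank_ker, ha, hb, show b + 1 + (a + 1) - 1 = a + b + 1 by omega]
    obtain ⟨u, hu⟩ := Nat.exists_eq_add_one_of_ne_zero (pow_ne_zero a (show Fintype.card F ≠ 0 by omega))
    obtain ⟨v, hv⟩ := Nat.exists_eq_add_one_of_ne_zero (pow_ne_zero b (show Fintype.card F ≠ 0 by omega))
    simp only [pow_succ, pow_add, hu, hv] at h1 ⊢
    have : (u + 1) * Fintype.card F + (v + 1) * Fintype.card F ≤ (u + 1) * (v + 1) * Fintype.card F + Fintype.card F := by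
      nlinarith [Nat.zero_le (u * v * Fintype.card F)]
    have := Nat.mul_pos u.add_one_pos (show 0 < Fintype.card F by omega)
    have := Nat.mul_pos v.add_one_pos (show 0 < Fintype.card F by omega)
    omega

theorem bar {Γ : K → K → Prop} (i : Inv J Γ) (hx : x ≠ 0) (y0 : y ≠ 0) : Γ (mk F x hx).rep (mk F y y0).rep ↔ Γ x y := by
  obtain ⟨s, e⟩ := exists_smul_eq_mk_rep F x hx
  obtain ⟨t, e'⟩ := exists_smul_eq_mk_rep F y y0
  rw [← e, ← e']
  exact ⟨fun h => by simpa [Units.smul_def] using hy.inv_sml i (inv_ne_zero s.ne_zero) (i.sml _ (inv_ne_zero t.ne_zero) _ _ h),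
    fun h => hy.inv_sml i s.ne_zero (i.sml _ t.ne_zero _ _ h)⟩

omit hy in
theorem br : H13.SG.BR.{u} := fun F K _ _ _ _ _ J hy pt => by
  classical
  have := Fintype.ofFinite (ℙ F K)
  have h := ah hy
  obtain ⟨c, c1⟩ := nt h
  replace c1 : c.1 ≠ 1 := by simpa using c1
  refine (exc _ _ _ _ h).imp (fun hn j hj => ?_) fun hD => ?_
  · obtain ⟨a, i, -, -, e⟩ := nor hy (j := ⟨j, hj⟩) c.2 c1 (normalizer_eq_top (CB J) (h := hn) ▸ mem_top _)
    exact ⟨a, i, e⟩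
  have eq : ∀ {Γ : K → K → Prop}, Inv J Γ → ∀ (y : GB J) (a b : ℙ F K), Γ a.rep b.rep → Γ (y • a).rep (y • b).rep :=
    fun i y => Projectivization.ind fun a ha => Projectivization.ind fun b hb k => by
      obtain ⟨j, rfl⟩ := pr_sur y
      exact (bar hy i _ _).2 (i.eqv j j.2 _ _ ((bar hy i _ _).1 k))
  have es := fun Γ (i : Inv J Γ) => est _ _ _ _ h hD ⟨Projectivization.ind fun a ha => Projectivization.ind fun b hb =>
    let ⟨j, hj, e⟩ := pt a b ha hb; ⟨pr J ⟨j, hj⟩, by rw [pr_mk]; congr 1⟩⟩ (fun y hn => Projectivization.ind fun x hx => by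
      obtain ⟨j, rfl⟩ := pr_sur y
      obtain ⟨a, i, -, ha, e⟩ := nor hy c.2 c1 hn
      obtain ⟨d, hd, -, k⟩ := ex_c (ha.mul (hy.c1 _ (norm_fr hx i)))
      refine ⟨d, hd, ?_⟩
      rw [k, pr_mk]; congr 1
      rw [e, mul_assoc, ← pow_succ, Nat.sub_add_cancel (Nat.one_le_pow _ _ Fintype.card_pos)])
    (fun a b => Γ a.rep b.rep) (eq i) fun a k => (i.ind _ _ k).2 (Submodule.mem_span_singleton_self _)
  have ct : ∀ {Γ : K → K → Prop}, Inv J Γ → ∀ x hx, {y | Γ x y}.ncard =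
      {b : ℙ F K | Γ (mk F x hx).rep b.rep}.ncard * (Fintype.card F - 1) := fun i x hx => by
    rw [← cnt]; congr 1; ext y
    exact ⟨fun k => ⟨(i.ind _ _ k).ne0, (bar hy i _ _).2 k⟩, fun ⟨_, k⟩ => (bar hy i _ _).1 k⟩
  have pc : ∀ {Γ : K → K → Prop}, Inv J Γ → Pr J Γ → ∃ c ∈ CB J, c ≠ 1 ∧ ∃ X : ℙ F K, Γ X.rep (c • X).rep :=
    fun i ⟨d, x, hd, k⟩ => let ⟨c, hc, c1, e⟩ := ex_c hd
      ⟨c, hc, fun h => let ⟨s, e⟩ := mem_one.1 (c1.1 h); (i.ind _ _ k).2 (Submodule.mem_span_singleton.2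
        ⟨s, by rw [← e, Algebra.smul_def]⟩), mk F x (i.ind _ _ k).1, by rw [e, bar hy i]; exact k⟩
  refine ⟨fun Γ i p d hd d1 => by_contra fun k => ?_, fun Γ i p x => ?_, fun Γ i p lt x hx => ?_⟩
  · obtain ⟨c, hc, c1, X, hX⟩ := pc i p
    obtain ⟨c', hc', c1', e⟩ := ex_c hd
    have := hD (fun a b => if Γ a.rep b.rep then 1 else 0) (fun y a b => if_congr
      ⟨fun k => by simpa using eq i y⁻¹ _ _ k, eq i y a b⟩ rfl rfl) c hc c' hc' c1 (mt c1'.1 d1)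
    rw [Finset.sum_eq_zero (s := .univ) (f := fun x : ℙ F K => if Γ x.rep (c' • x).rep then (1 : ℂ) else 0) (Projectivization.ind fun x hx _ =>
      if_neg fun k' => k ⟨x, by rwa [e, bar hy i] at k'⟩)] at this
    simpa using (by simpa using this : ∀ X : ℙ F K, ¬ Γ X.rep (c • X).rep) X hX
  · by_cases hx : x = 0
    · rw [Set.eq_empty_of_forall_notMem (s := {y | Γ x y}) fun y k => (i.ind _ _ k).1 hx]; simp
    obtain ⟨_, ⟨l, ⟨d, e⟩, rfl⟩⟩ := c
    rw [ct i x hx]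
    exact Nat.mul_le_mul ((es Γ i _ ⟨l, ⟨d, e⟩, rfl⟩ c1 _).1 (Projectivization.ind fun x hx k =>
      p ⟨d, x, ⟨l, l.2, e⟩, by rwa [pr_mk, bar hy i, e] at k⟩)) (Nat.sub_le _ _)
  obtain ⟨c, hc, c1, k⟩ := pc i p
  have := (es Γ i c hc c1 (mk F x hx)).2 (((Nat.pow_le_pow_left lt.le 10).trans (Nat.pow_le_pow_right Fintype.card_pos
    (by have := hy.n13; omega))).trans ((Nat.le_add_right _ _).trans (sz' hy))) k
  rw [ct i x hx, ← card_V F K, card' F K, Nat.card_eq_fintype_card, Nat.card_eq_fintype_card, ← mul_assoc]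
  have := Nat.mul_le_mul_right (Fintype.card F - 1) this
  have := q2 F
  rw [Nat.succ_mul (Fintype.card _)] at *
  omega

end H5.SG
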