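import Cfsg.Agent.H7.AM0
import Cfsg.Agent.H15.RK.F

/-! S5586: elementary abelian subgroups of order `2 ^ 12` of the Conway group. -/

set_option autoImplicit false

open Cfsg
namespace H5.AM
open H15 H15.RK

noncomputable def nf (g : ℕ) : ℕ := orTo (fun p => tc (Nat.xor (Nat.pow 2 (ap g p)) (Nat.pow 2 p))) 24

noncomputable def stepJ (TB : ℕ) (ih : List ℕ → ℕ → ℕ → ℕ → ℕ → Bool) (L : List ℕ) (M p C B : ℕ) : Bool :=
  Bool.rec (force (low C) fun i => band (band (Nat.blt i 191) (bn (tb M i))) (force (mr i) fun r =>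
    forceL (i :: mapL (fun j => getT r 8 255 j) L) fun K => fs (msk K) fun km =>
      fs (Nat.xor C (Nat.land C km)) fun C' => band (bimp (Nat.beq (Nat.land km (Nat.lor C M)) km)
        (forceL (appL K L) fun L' => fs (Nat.lor M km) fun M' => force (Nat.mul 2 p) fun p' =>
          fs (Nat.land C' (gt CMT 191 i)) fun C'' => fs (Nat.lor B (gt TB 4096 i)) fun B' => ih L' M' p' C'' B'))
        (ih L M p C' B)))
    (bor (Nat.ble p 1) (force (zs B) fun f => Nat.ble (Nat.mul f p) 2048)) (Nat.beq C 0)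

noncomputable def dfsJ (TB n : ℕ) : List ℕ → ℕ → ℕ → ℕ → ℕ → Bool :=
  Nat.rec (fun _ _ _ _ _ => false) (fun _ ih => stepJ TB ih) n

theorem runJ : force (pk (fun i => force (iv i) nf) 4096 191) (fun TB => dfsJ TB 200 [] 0 1 (ones 191) 0) = true := by
  decide +kernel

end H5.AM
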