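import Cfsg.Agent.H5.AM4

/-! S5586: elementary abelian subgroups of order `2 ^ 12` of the Conway group: soundness. -/

set_option autoImplicit false

open Cfsg
namespace H5.AM
open H15 H15.RK H19 H0 H0.Mo Subgroup
open scoped Pointwise Matrix

/-- fixed codewords -/
def FX (P : Subgroup Pm) (x : V) : Prop := x ∈ golayCode ∧ ∀ σ ∈ P, ∀ p, x (σ p) = x p

variable {P : Subgroup Pm}

theorem FX.ex {x : V} (a : FX P x) : ∃ a < 4096, x = W (lin row 12 a) := by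
  obtain ⟨a, ha, e⟩ := exists_enc a.1
  exact ⟨a, ha, enc_eq_lin' ha ▸ e⟩

theorem val_nf {i : ℕ} (h : i < 191) (m : ι i ∈ P) : Val row (FX P) (gt (pk (fun i => nf (iv i)) 4096 191) 4096 i) := by
  refine .pk h <| .orTo fun p hp => val_tc fun x f => ?_
  have a := (ι_ok h).1
  simp only [xor_eq', Nat.pow_eq, W_xor, dotProduct_add]
  rw [W_pow (a.lt hp), W_pow hp, ← a.app hp]
  simp only [dotProduct_single_one]
  rw [f.2 _ m, CharTwo.add_self_eq_zero]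

theorem dfsJ_spec (h1 : ∀ σ ∈ P, σ * σ = 1) (h2 : ∀ σ ∈ P, ∀ τ ∈ P, σ * τ = τ * σ)
    {T : Sb} (hT : ∀ x ∈ T, FX P x) {TB : ℕ} (hB : ∀ i < 191, ι i ∈ P → Val row (FX P) (gt TB 4096 i))
    (n : ℕ) : ∀ {L : List ℕ} {M p C B : ℕ}, (∀ i ∈ L, i < 191 ∧ ι i ∈ P) →
    (∀ i, M.testBit i = true ↔ i ∈ L) → L.length + 1 = p →
    (∀ σ ∈ P, σ = 1 ∨ ∃ i < 191, σ = ι i ∧ (C.testBit i = true ∨ i ∈ L)) → Val row (FX P) B →
    dfsJ TB n L M p C B = true → #P ≤ 1 ∨ Nat.card T * #P ≤ 2048 := by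
  induction n with
  | zero => exact fun _ _ _ _ _ e => absurd e Bool.false_ne_true
  | succ n ih =>
    intro L M p C B hL hM hp hC v e
    change stepJ _ (dfsJ _ n) L M p C B = true at e
    rw [stepJ, brec_eq_ite] at e
    split_ifs at e with c
    · suffices h : #P ≤ p by
        simp only [bor_iff, force_eq, Nat.ble_eq, Nat.mul_eq, zs, fs_eq] at e
        exact e.imp h.trans (Nat.mul_le_mul (v.card (fun _ => FX.ex) hT _) h).trans
      obtain rfl := Nat.eq_of_beq_eq_true c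
      rw [← hp, ← List.length_map ι, ← List.length_cons (a := 1), ← SetLike.coe_sort_coe, Nat.card_coe_set_eq]
      refine le_trans ((Set.ncard_le_ncard fun σ hσ => ?_).trans_eq (Set.ncard_coe_finset _)) (List.toFinset_card_le _)
      rcases hC σ hσ with rfl | ⟨i, -, rfl, m⟩
      exacts [by simp, by simpa using .inr ⟨i, by simpa using m, rfl⟩]
    simp only [force_eq, fs_eq, forceL_eq, band_iff, bimp_iff, bn_iff, tb_eq, Nat.blt_eq, Nat.beq_eq, mem_mapL, mem_appL,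
      Nat.land_eq, Nat.lor_eq, xor_eq', Nat.mul_eq] at e
    obtain ⟨⟨hi, hm⟩, e1, e2⟩ := e
    generalize low C = i at *
    rw [hM] at hm
    have k : ∀ {j}, C.testBit j = true → j ∉ i :: L.map (mt i) →
        (C ^^^ C &&& msk (i :: L.map (mt i))).testBit j = true := fun a b => by
      rw [← msk_bit] at b; simp [a, b]
    by_cases m : ι i ∈ P
    · have k1 : ∀ j ∈ i :: L.map (mt i), j < 191 ∧ ι j ∈ P := fun j hj => by
        rcases List.mem_cons.1 hj with rfl | hj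
        · exact ⟨hi, m⟩
        obtain ⟨l, hl, rfl⟩ := List.mem_map.1 hj
        obtain ⟨a, b⟩ := mt_spec hi (hL l hl).1
        have := (b (fun e => hm (e ▸ hl)) (h2 _ m _ (hL l hl).2)).1
        exact ⟨this, a this ▸ mul_mem m (hL l hl).2⟩
      refine ih (fun j hj => (List.mem_append.1 hj).elim (k1 j) (hL j)) (fun j => ?_) (by simp; omega) (fun σ hσ => ?_)
        (v.or (hB i hi m)) (e1 (Nat.eq_of_testBit_eq fun j => ?_))
      · rw [Nat.testBit_or, Bool.or_eq_true, hM, msk_bit, List.mem_append, or_comm]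
      · refine (hC σ hσ).imp_right fun ⟨j, hj, a, b⟩ => ⟨j, hj, a, or_iff_not_imp_right.2 fun n => ?_⟩
        rw [List.mem_append, not_or] at n
        rw [Nat.testBit_and, k (b.resolve_right n.2) n.1,
          ((mt_spec hi hj).2 (fun e => n.1 (e ▸ List.mem_cons_self)) (h2 _ m _ (a ▸ hσ))).2]; rfl
      · rw [Nat.testBit_and, Bool.and_eq_left_iff_imp, msk_bit, Nat.testBit_or, Bool.or_eq_true, hM]
        intro hj
        obtain ⟨a, b⟩ := k1 j hj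
        obtain ⟨l, hl, c, d⟩ := (hC _ b).resolve_left (ι_ok a).2
        by_cases e : j = l
        · exact e ▸ d
        obtain ⟨f, g⟩ := mt_spec a hl
        have := (g e (by rw [c])).1
        exact absurd ((f this).symm.trans (c ▸ h1 _ b)) (ι_ok this).2
    · refine ih hL hM hp (fun σ hσ => (hC σ hσ).imp_right fun ⟨j, hj, a, b⟩ => ⟨j, hj, a, b.imp_left fun b => k b fun n => m ?_⟩) v e2
      rcases List.mem_cons.1 n with rfl | n
      · exact a ▸ hσ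
      obtain ⟨l, hl, rfl⟩ := List.mem_map.1 n
      rw [← (mt_spec hi (hL l hl).1).1 hj] at a
      exact (mul_mem_cancel_right (hL l hl).2).1 (a ▸ hσ)

theorem je : H7.AM.JE := by
  intro X hX cX
  obtain ⟨N, sy, hN⟩ := csM.s
  obtain ⟨g, -, g2⟩ := sy.scj_le (K := X) (fun g _ => (coHom g).map_zero)
    (PiN.of_isPGroup Nat.prime_two fun ⟨x, hx⟩ => ⟨1, Subtype.ext (by simpa [sq] using hX x hx)⟩)
  refine ⟨g, ?_⟩
  rw [← card_cj g X] at cX
  replace hX : ∀ x ∈ cj g X, x * x = 1 := fun x hx => by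
    obtain ⟨a, ha, rfl⟩ := mem_cj'.1 hx
    rw [conj_mul, hX a ha]; simp
  generalize cj g X = X at *
  have cm := fun a ha b hb => mul_comm_of_comm (abelem2_iff.2 hX).1 (a := a) (b := b) ha hb
  let ρ (a : Co0) (σ : Pm) : Prop := ∃ h : σ ∈ M24, ∃ e ∈ EE, a = e * prmH ⟨σ, h⟩
  have ρ1 : ∀ a σ τ, ρ a σ → ρ a τ → σ = τ := fun a σ τ ⟨h, e, he, α⟩ ⟨h', e', he', β⟩ => by
    refine mul_inv_eq_one.1 (congrArg Subtype.val (eq_one_of_prmH (σ := (⟨σ, h⟩ : M24) * (⟨τ, h'⟩ : M24)⁻¹) ?_))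
    rw [map_mul, map_inv, eq_inv_mul_of_mul_eq (α.symm.trans β)]
    simpa [mul_assoc] using mul_mem (inv_mem he) he'
  have ρ2 : ∀ a b σ τ, ρ a σ → ρ b τ → ρ (a * b) (σ * τ) := fun a b σ τ ⟨h, e, he, α⟩ ⟨h', e', he', β⟩ =>
    ⟨mul_mem h h', _, mul_mem he (conj_EE (prmH_mem ⟨σ, h⟩) he'), by
      rw [show (⟨σ * τ, mul_mem h h'⟩ : M24) = ⟨σ, h⟩ * ⟨τ, h'⟩ from rfl, map_mul, α, β]; group⟩
  have ρ3 : ρ 1 1 := ⟨one_mem _, 1, one_mem _, by rw [show (⟨1, one_mem _⟩ : M24) = 1 from rfl, map_one, one_mul]⟩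
  obtain ⟨P, B, l1, c1, p1, b1⟩ := layerG ρ (fun a ha => let ⟨σ, _, h⟩ := hN a (g2 ha); ⟨σ, σ.2, h⟩) ρ1 ρ2
  have lB : B ≤ EE := fun b hb => by
    obtain ⟨_, e, he, α⟩ := b1 b hb
    rwa [α, show (⟨1, one_mem _⟩ : M24) = 1 from rfl, map_one, mul_one]
  have inj {x y} (hx : x ∈ golayCode) (hy : y ∈ golayCode) (e : sg hx = sg hy) : x = y :=
    support₂_inj (mono_inj (one_mem _) (one_mem _) (support_mem_cw.2 hx) (support_mem_cw.2 hy) e).2
  obtain ⟨T, B', l2, c2, p2, b2⟩ := layer (A := B) (fun a x => ∃ h : x ∈ golayCode, a = sg h)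
    (fun a ha => by
      obtain ⟨c, hc, rfl⟩ := lB ha
      obtain ⟨m, hm, rfl⟩ := mem_cw.1 hc
      exact ⟨_, W_mem_of_isC hm, by rw [RK.sg]; congr 1; exact (support_W m).symm⟩)
    (fun a x y ⟨hx, α⟩ ⟨hy, β⟩ => inj hx hy (α.symm.trans β))
    fun a b x y ⟨hx, α⟩ ⟨hy, β⟩ => ⟨add_mem hx hy, by rw [α, β, sg_add]⟩
  obtain rfl : B' = ⊥ := eq_bot_iff.2 fun b hb => let ⟨_, α⟩ := b2 b hb; α.trans (co_ext'' fun v p => by rw [cf_sg]; simp)
  rw [card_bot, mul_one] at c2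
  have h1 : ∀ σ ∈ P, σ * σ = 1 := fun σ hσ => let ⟨a, ha, α⟩ := p1 σ hσ; ρ1 1 _ _ (hX a ha ▸ ρ2 _ _ _ _ α α) ρ3
  have r := runJ
  simp only [force_eq] at r
  refine (dfsJ_spec (T := T) h1 (fun σ hσ τ hτ => let ⟨a, ha, α⟩ := p1 σ hσ; let ⟨b, hb, β⟩ := p1 τ hτ
      ρ1 _ _ _ (ρ2 _ _ _ _ α β) (cm a ha b hb ▸ ρ2 _ _ _ _ β α)) (fun x hx => ?_) (fun _ => val_nf) _ (by simp) (by simp) rfl
    (fun σ hσ => ?_) (fun _ _ _ => Nat.zero_testBit _) r).elim (fun e => ?_) fun e => ?_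
  rotate_left 2
  · have k : #B = #X := le_antisymm (card_le l1) (c1.trans_le ((Nat.mul_le_mul_right _ e).trans_eq (one_mul _)))
    rw [← eq_of_le_of_card_ge l1 k.ge]
    exact eq_of_le_of_card_ge lB (by rw [k, cX, card_EE])
  · rw [← c2, mul_comm, ← c1, cX] at e
    exact absurd e (by norm_num)
  · obtain ⟨b, hb, hx, rfl⟩ := p2 x hx
    refine ⟨hx, fun σ hσ p => ?_⟩
    obtain ⟨a, ha, h, e, he, rfl⟩ := p1 _ (inv_mem hσ)
    refine congrFun (inj (comp_mem h hx) hx ?_) p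
    rw [← sg_conj ⟨_, h⟩ hx, mul_inv_eq_iff_eq_mul, ← mul_right_inj e, ← mul_assoc, cm _ ha _ (l1 hb), ← mul_assoc, ← mul_assoc,
      EE_comm he (lB hb)]
  · obtain ⟨a, ha, α⟩ := p1 σ hσ
    obtain ⟨τ, hτ, β⟩ := hN a (g2 ha)
    exact (inv_spec le_rfl inv_ok.1 (ρ1 _ _ _ α ⟨τ.2, β⟩ ▸ hτ) (h1 σ hσ)).imp_right
      fun ⟨i, hi, e⟩ => ⟨i, hi, e, .inl (by simp [ones_bit, hi])⟩

end H5.AM
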