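import Cfsg.Agent.H11.OmegaOrder
import Cfsg.Agent.H11.OmegaBridge
import Cfsg.Agent.H11.Congr
import Cfsg.Agent.H19.Amb2

/-! Computations in the orthogonal group `O₈⁻(2)`: matrices coded by natural numbers. -/

set_option autoImplicit false
set_option linter.unusedVariables false

open Cfsg
namespace H5.O8
open Subgroup Matrix H19

abbrev I8 := (Fin 3 ⊕ Fin 3) ⊕ Fin 2
abbrev V := I8 → ZMod 2
abbrev Qm := quadFormMinus 3 (ZMod 2) 1 1
abbrev Om := isometryGroup (ZMod 2) Qm
def ix : I8 → ℕ := Sum.elim (Sum.elim (fun i => i) fun i => 7 - i) fun i => 3 + i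
def vf (v : ℕ) (i : I8) : ZMod 2 := bif v.testBit (ix i) then 1 else 0
theorem ix8 : ∀ i, ix i < 8 := by decide
theorem ixs : ∀ k < 8, ∃ i, ix i = k := by decide
theorem vf_single : ∀ j : I8, vf (2 ^ ix j) = Pi.single j 1 := by decide
theorem vf0 : vf 0 = 0 := funext fun i => by simp [vf]
theorem vf_xor (x y : ℕ) : vf (x ^^^ y) = vf x + vf y := funext fun i => by
  simp only [vf, Nat.testBit_xor, Pi.add_apply]
  cases x.testBit (ix i) <;> cases y.testBit (ix i) <;> rfl
theorem vf_xor' (x y : ℕ) : vf (Nat.xor x y) = vf x + vf y := vf_xor x y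
theorem vf_mod (x : ℕ) : vf (x % 256) = vf x := funext fun i => by
  simp only [vf, show 256 = 2 ^ 8 from rfl, Nat.testBit_mod_two_pow, ix8 i, decide_true, Bool.true_and]
theorem vf_congr {x y : ℕ} (h : x % 256 = y % 256) : vf x = vf y := by rw [← vf_mod, h, vf_mod]
theorem vf_inj {x y : ℕ} (h : vf x = vf y) : x % 256 = y % 256 := Nat.eq_of_testBit_eq fun k => by
  simp only [show 256 = 2 ^ 8 from rfl, Nat.testBit_mod_two_pow]
  by_cases hk : k < 8
  · obtain ⟨i, rfl⟩ := ixs k hk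
    have := congrFun h i
    simp only [vf] at this
    revert this
    cases x.testBit (ix i) <;> cases y.testBit (ix i) <;> simp
  · simp [hk]
theorem vf_surj (v : V) : ∃ n < 256, vf n = v := by
  have : Function.Bijective (fun n : Fin 256 => vf n) := (Fintype.bijective_iff_injective_and_card _).2
    ⟨fun a b h => Fin.ext (by simpa [Nat.mod_eq_of_lt a.2, Nat.mod_eq_of_lt b.2] using vf_inj h), by simp⟩
  obtain ⟨n, e⟩ := this.2 v
  exact ⟨n, n.2, e⟩
theorem vv (v : V) : v + v = 0 := funext fun i => CharTwo.add_self_eq_zero (v i)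

def qN (v : ℕ) : ℕ := Nat.mod (Nat.shiftRight 47679096786579081896052521191815541452059613658854523630027415342356170276608 (Nat.mod v 256)) 2
theorem tQ : ∀ v < 256, Qm (vf v) = (qN v : ℕ) := by decide +kernel
theorem qN_mod (v : ℕ) : qN (v % 256) = qN v := congrArg (fun x => Nat.mod (Nat.shiftRight _ x) 2) (Nat.mod_mod v 256)
theorem vf_q (v : ℕ) : Qm (vf v) = (qN v : ℕ) := by
  rw [← vf_mod, tQ _ (Nat.mod_lt _ (by decide)), qN_mod]
theorem q_inj {x y : ℕ} (h : Qm (vf x) = Qm (vf y)) : qN x = qN y := by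
  rw [vf_q, vf_q] at h
  have h1 : qN x < 2 := Nat.mod_lt _ two_pos
  have h2 : qN y < 2 := Nat.mod_lt _ two_pos
  generalize qN x = a, qN y = b at h h1 h2
  interval_cases a <;> interval_cases b <;> first | rfl | exact absurd h (by decide)

def tm (v k m j : ℕ) : ℕ := Nat.mul (Nat.mod (Nat.shiftRight v k) 2) (Nat.shiftRight m j)
def ap (m v : ℕ) : ℕ := Nat.xor (Nat.xor (Nat.xor (Nat.xor (Nat.xor (Nat.xor (Nat.xor (Nat.xor 0 (tm v 0 m 0)) (tm v 1 m 8)) (tm v 2 m 16)) (tm v 3 m 24)) (tm v 4 m 32)) (tm v 5 m 40)) (tm v 6 m 48)) (tm v 7 m 56)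
def pk (a0 a1 a2 a3 a4 a5 a6 a7 : ℕ) : ℕ := Nat.add (Nat.mod a0 256) (Nat.mul 256 (Nat.add (Nat.mod a1 256) (Nat.mul 256 (Nat.add (Nat.mod a2 256) (Nat.mul 256 (Nat.add (Nat.mod a3 256) (Nat.mul 256 (Nat.add (Nat.mod a4 256) (Nat.mul 256 (Nat.add (Nat.mod a5 256) (Nat.mul 256 (Nat.add (Nat.mod a6 256) (Nat.mul 256 (Nat.mod a7 256))))))))))))))
def mul (m n : ℕ) : ℕ := pk (ap m n) (ap m (Nat.shiftRight n 8)) (ap m (Nat.shiftRight n 16)) (ap m (Nat.shiftRight n 24)) (ap m (Nat.shiftRight n 32)) (ap m (Nat.shiftRight n 40)) (ap m (Nat.shiftRight n 48)) (ap m (Nat.shiftRight n 56))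
def one : ℕ := 9241421688590303745
def frc {β : Type} (n : ℕ) (k : ℕ → β) : β := Nat.rec (k 0) (fun m _ => k m.succ) n
theorem frc_eq {β : Type} (n : ℕ) (k : ℕ → β) : frc n k = k n := by cases n <;> rfl

theorem tm_lin {A : Matrix I8 I8 (ZMod 2)} {n c j : ℕ} (h : A *ᵥ vf (n >>> j) = vf (c >>> j)) (v k : ℕ) :
    A *ᵥ vf (tm v k n j) = vf (tm v k c j) := by
  rcases Nat.mod_two_eq_zero_or_one (v >>> k) with e | e
  · rw [show tm v k n j = (v >>> k) % 2 * (n >>> j) from rfl, show tm v k c j = (v >>> k) % 2 * (c >>> j) from rfl, e,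
      zero_mul, zero_mul, vf0, mulVec_zero]
  · rw [show tm v k n j = (v >>> k) % 2 * (n >>> j) from rfl, show tm v k c j = (v >>> k) % 2 * (c >>> j) from rfl, e,
      one_mul, one_mul, h]
theorem lin {A : Matrix I8 I8 (ZMod 2)} {n c : ℕ} (h : ∀ k < 8, A *ᵥ vf (n >>> (8 * k)) = vf (c >>> (8 * k))) (v : ℕ) :
    A *ᵥ vf (ap n v) = vf (ap c v) := by
  simp only [ap, vf_xor', mulVec_add, vf0, mulVec_zero]
  rw [tm_lin (j := 0) (h 0 (by decide)), tm_lin (j := 8) (h 1 (by decide)), tm_lin (j := 16) (h 2 (by decide)),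
    tm_lin (j := 24) (h 3 (by decide)), tm_lin (j := 32) (h 4 (by decide)), tm_lin (j := 40) (h 5 (by decide)),
    tm_lin (j := 48) (h 6 (by decide)), tm_lin (j := 56) (h 7 (by decide))]
theorem tm_mod {k : ℕ} (hk : k < 8) (v m j : ℕ) : tm (v % 256) k m j = tm v k m j := by
  refine congrArg (fun x => Nat.mul x _) (show (v % 256) >>> k % 2 = v >>> k % 2 from ?_)
  rw [Nat.shiftRight_eq_div_pow, Nat.shiftRight_eq_div_pow]
  interval_cases k <;> omega
theorem ap_mod (m v : ℕ) : ap m (v % 256) = ap m v := by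
  simp only [ap, tm_mod (show 0 < 8 by decide), tm_mod (show 1 < 8 by decide), tm_mod (show 2 < 8 by decide),
    tm_mod (show 3 < 8 by decide), tm_mod (show 4 < 8 by decide), tm_mod (show 5 < 8 by decide),
    tm_mod (show 6 < 8 by decide), tm_mod (show 7 < 8 by decide)]
theorem ap1 : ∀ v < 256, ap one v % 256 = v := by decide +kernel
theorem ap_one (v : ℕ) : vf (ap one v) = vf v := by
  rw [← ap_mod, ← vf_mod, ap1 _ (Nat.mod_lt _ (by decide)), vf_mod]
theorem one_col : ∀ k < 8, (one >>> (8 * k)) % 256 = 2 ^ k % 256 := by decide +kernel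
theorem cols {A : Matrix I8 I8 (ZMod 2)} {m : ℕ} (h : ∀ k < 8, A *ᵥ vf (2 ^ k) = vf (m >>> (8 * k))) (v : ℕ) :
    A *ᵥ vf v = vf (ap m v) := by
  rw [← ap_one v]
  exact lin (fun k hk => by rw [vf_congr (one_col k hk), h k hk]) v
theorem ap_col (m : ℕ) : ∀ k < 8, ap m (2 ^ k) = m >>> (8 * k) := fun k hk => by
  have e : ∀ a b : ℕ, Nat.xor a b = a ^^^ b := fun _ _ => rfl
  have e' : ∀ a b : ℕ, Nat.shiftRight a b = a >>> b := fun _ _ => rfl
  have e'' : ∀ a b : ℕ, Nat.mod a b = a % b := fun _ _ => rfl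
  interval_cases k <;> simp [ap, tm, e, e', e'']
theorem pk_col (a : ℕ → ℕ) : ∀ k < 8, pk (a 0) (a 1) (a 2) (a 3) (a 4) (a 5) (a 6) (a 7) >>> (8 * k) % 256 = a k % 256 :=
  fun k hk => by
    have e'' : ∀ a b : ℕ, Nat.mod a b = a % b := fun _ _ => rfl
    rw [Nat.shiftRight_eq_div_pow]
    simp only [pk, e'', Nat.add_eq, Nat.mul_eq]
    interval_cases k <;> omega

/-- the action on vectors -/
def ac (g : Om) (v : V) : V := g.1.1 *ᵥ v
theorem ac_mul (g h : Om) (v : V) : ac (g * h) v = ac g (ac h v) := (mulVec_mulVec ..).symm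
theorem ac_one (v : V) : ac 1 v = v := one_mulVec v
theorem ac_add (g : Om) (v w : V) : ac g (v + w) = ac g v + ac g w := mulVec_add ..
theorem ac_zero (g : Om) : ac g 0 = 0 := mulVec_zero _
theorem ac_q (g : Om) (v : V) : Qm (ac g v) = Qm v := (H11.mem_isometryGroup _ _).1 g.2 v
theorem ac_ext {g h : Om} (e : ∀ v, ac g v = ac h v) : g = h := Subtype.ext (Units.ext (Matrix.ext_iff_mulVec.2 e))

/-- `m` is a code of `g` -/
def R (g : Om) (m : ℕ) : Prop := ∀ v, ac g (vf v) = vf (ap m v)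
variable {g h : Om} {m n : ℕ}
theorem R.of (h : ∀ k < 8, ac g (vf (2 ^ k)) = vf (m >>> (8 * k))) : R g m := cols h
theorem R.col (h : R g m) (k : ℕ) (hk : k < 8) : ac g (vf (2 ^ k)) = vf (m >>> (8 * k)) := by rw [h, ap_col m k hk]
theorem R.mul (a : R g m) (b : R h n) : R (g * h) (mul m n) := .of fun k hk => by
  rw [ac_mul, b.col k hk, a]
  exact (vf_congr (pk_col (fun k => ap m (n >>> (8 * k))) k hk)).symm
theorem R.one : R 1 one := fun v => by rw [ac_one, ap_one]
theorem R.ext (a : R g m) (b : R h m) : g = h := ac_ext fun v => by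
  obtain ⟨v, -, rfl⟩ := vf_surj v
  rw [a, b]
theorem R.eq (a : R g m) (b : R h n) (e : (m == n) = true) : g = h := a.ext (beq_iff_eq.1 e ▸ b)

def iz : List (ℕ × ℕ) → ℕ → ℕ → Bool
  | [], x, y => Nat.beq (qN x) (qN y)
  | p :: l, x, y => iz l x y && frc (Nat.xor x p.1) fun x' => frc (Nat.xor y p.2) fun y' => iz l x' y'
theorem iz_cons {j n c x y : ℕ} {l : List (ℕ × ℕ)} (h : iz ((Nat.shiftRight n j, Nat.shiftRight c j) :: l) x y = true) (v k : ℕ) :
    iz l (Nat.xor x (tm v k n j)) (Nat.xor y (tm v k c j)) = true := by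
  rw [iz, Bool.and_eq_true, frc_eq, frc_eq] at h
  rcases Nat.mod_two_eq_zero_or_one (v >>> k) with e | e
  · rw [show tm v k n j = (v >>> k) % 2 * (n >>> j) from rfl, show tm v k c j = (v >>> k) % 2 * (c >>> j) from rfl, e,
      zero_mul, zero_mul]
    exact (congrArg₂ (iz l) (Nat.xor_zero x) (Nat.xor_zero y)).trans h.1
  · rw [show tm v k n j = (v >>> k) % 2 * (n >>> j) from rfl, show tm v k c j = (v >>> k) % 2 * (c >>> j) from rfl, e,
      one_mul, one_mul]
    exact h.2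
/-- the isometry test -/
def ok (m : ℕ) : Bool := iz [(Nat.shiftRight one 0, Nat.shiftRight m 0), (Nat.shiftRight one 8, Nat.shiftRight m 8), (Nat.shiftRight one 16, Nat.shiftRight m 16), (Nat.shiftRight one 24, Nat.shiftRight m 24), (Nat.shiftRight one 32, Nat.shiftRight m 32), (Nat.shiftRight one 40, Nat.shiftRight m 40), (Nat.shiftRight one 48, Nat.shiftRight m 48), (Nat.shiftRight one 56, Nat.shiftRight m 56)] 0 0
theorem nd : ∀ x < 256, (∀ y < 256, qN (x ^^^ y) = qN y) → x = 0 := by decide +kernel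
theorem ex_R (h : ok m = true) : ∃ g, R g m := by
  have k : ∀ v, qN (ap one v) = qN (ap m v) := fun v => Nat.eq_of_beq_eq_true
    (iz_cons (iz_cons (iz_cons (iz_cons (iz_cons (iz_cons (iz_cons (iz_cons h v 0) v 1) v 2) v 3) v 4) v 5) v 6) v 7)
  let A : Matrix I8 I8 (ZMod 2) := .of fun i j => vf (m >>> (8 * ix j)) i
  have e : ∀ v, A *ᵥ vf v = vf (ap m v) := cols fun k hk => by
    obtain ⟨j, rfl⟩ := ixs k hk
    rw [vf_single, mulVec_single_one]; rfl
  have q : ∀ v, Qm (A *ᵥ v) = Qm v := fun v => by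
    obtain ⟨v, -, rfl⟩ := vf_surj v
    rw [e, vf_q, ← k, ← vf_q, ap_one]
  have u : IsUnit A := mulVec_injective_iff_isUnit.1 ((injective_iff_map_eq_zero A.mulVecLin).2 fun v hv => by
    obtain ⟨x, hx, rfl⟩ := vf_surj v
    rw [nd x hx fun y _ => q_inj (by rw [← q, vf_xor, mulVec_add, show A *ᵥ vf x = 0 from hv, zero_add, q]), vf0])
  exact ⟨⟨u.unit, (H11.mem_isometryGroup _ _).2 q⟩, e⟩
open Classical in
/-- the element with a given code -/
noncomputable def el (m : ℕ) : Om := if h : ∃ g, R g m then h.choose else 1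
theorem R_el (h : ok m = true) : R (el m) m := by
  rw [el, dif_pos (ex_R h)]; exact (ex_R h).choose_spec

/-! ### filtrations -/

def S (k : ℕ) : AddSubgroup V where
  carrier := {v | ∀ i, k ≤ ix i → v i = 0}
  zero_mem' _ _ := rfl
  add_mem' a b i h := by rw [Pi.add_apply, a i h, b i h, add_zero]
  neg_mem' a i h := by rw [Pi.neg_apply, a i h, neg_zero]
theorem S_mono {j k : ℕ} (h : j ≤ k) : S j ≤ S k := fun _ a i l => a i (h.trans l)
theorem S0 {v : V} (h : v ∈ S 0) : v = 0 := funext fun i => h i (Nat.zero_le _)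
theorem S8 (v : V) : v ∈ S 8 := fun i h => absurd (ix8 i) (not_lt.2 h)
theorem mem_S {k : ℕ} : vf n ∈ S k ↔ n % 256 < 2 ^ k := by
  rw [← vf_mod]
  refine ⟨fun h => Nat.lt_pow_two_of_testBit _ fun i hi => ?_, fun h i l => by
    rw [vf, Nat.testBit_lt_two_pow (h.trans_le (Nat.pow_le_pow_right two_pos l))]; rfl⟩
  by_cases h8 : i < 8
  · obtain ⟨j, rfl⟩ := ixs i h8
    have := h j hi
    rw [vf] at this
    revert this
    cases (n % 256).testBit (ix j) <;> simp
  · exact Nat.testBit_lt_two_pow ((Nat.mod_lt _ (by decide)).trans_le (Nat.pow_le_pow_right two_pos (not_lt.1 h8)))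
theorem S_ind {k : ℕ} (P : AddSubgroup V) (h : ∀ j < k, j < 8 → vf (2 ^ j) ∈ P) : S k ≤ P := fun v hv => by
  rw [← Finset.univ_sum_single v]
  refine sum_mem fun i _ => ?_
  have : v i = 0 ∨ v i = 1 := by generalize v i = a; revert a; decide
  rcases this with e | e
  · rw [e, Pi.single_zero]; exact zero_mem _
  · rw [e, ← vf_single]
    exact h _ (lt_of_not_ge fun l => by rw [hv i l] at e; exact absurd e (by decide)) (ix8 i)

/-- the elements lowering the filtration by `c` steps -/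
def Lv (s : ℕ →o ℕ) (c : ℕ) : Subgroup Om :=
  let M : Submonoid Om :=
    { carrier := {g | ∀ i, ∀ v ∈ S (s i), ac g v + v ∈ S (s (i - c))}
      one_mem' := fun i v _ => by rw [ac_one, vv]; exact zero_mem _
      mul_mem' := fun {g h} a b i v hv => by
        have := add_mem (add_mem (S_mono (s.mono (Nat.sub_le _ c)) (a _ _ (b i v hv))) (b i v hv)) (a i v hv)
        rwa [add_assoc (ac g _), vv, add_zero, ← add_assoc, ← ac_add, add_assoc, vv, add_zero, ← ac_mul] at this }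
  { M with inv_mem' := fun {g} a => (Submonoid.powers_le (P := M)).2 a (mem_powers_iff_mem_zpowers.2 (inv_mem (mem_zpowers g))) }
variable {s : ℕ →o ℕ} {c d i : ℕ} {v : V}
theorem Lv_st (a : g ∈ Lv s c) (hv : v ∈ S (s i)) : ac g v ∈ S (s i) := by
  simpa [add_assoc, vv] using add_mem (S_mono (s.mono (Nat.sub_le _ c)) (a i v hv)) hv
theorem Lv_sq (a : g ∈ Lv s c) : g * g ∈ Lv s (c + c) := fun i v hv => by
  have := a _ _ (a i v hv)
  rwa [ac_add, add_assoc, ← add_assoc (ac g v), vv, zero_add, ← ac_mul, Nat.sub_sub] at this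
theorem Lv_cm (a : g ∈ Lv s c) (b : h ∈ Lv s d) : g * h * g⁻¹ * h⁻¹ ∈ Lv s (c + d) := fun i v hv => by
  have hw := Lv_st (inv_mem a) (Lv_st (inv_mem b) hv)
  have e : v = ac h (ac g (ac g⁻¹ (ac h⁻¹ v))) := by rw [← ac_mul, ← ac_mul, ← ac_mul, mul_inv_cancel_right, mul_inv_cancel, ac_one]
  rw [ac_mul, ac_mul, ac_mul]
  generalize ac g⁻¹ (ac h⁻¹ v) = w at hw e
  have k1 := a _ _ (b i w hw)
  have k2 := b _ _ (a i w hw)
  rw [Nat.sub_sub, add_comm d] at k1
  rw [Nat.sub_sub] at k2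
  have := add_mem k1 k2
  rw [ac_add, ac_add] at this
  convert this using 1
  rw [e]
  have z : ∀ a b c d e : V, a + b = a + c + (d + e) + (b + d + (c + e)) := fun a b c d e => by
    rw [show a + c + (d + e) + (b + d + (c + e)) = a + b + (c + c) + (d + d) + (e + e) by abel, vv, vv, vv]; simp
  exact z ..
theorem lv_of (t : ℕ → ℕ) (ht : ∀ i k, k < s i → t k ≤ s (i - 1)) (h : ∀ k < 8, ac g (vf (2 ^ k)) + vf (2 ^ k) ∈ S (t k)) :
    g ∈ Lv s 1 := fun i => by
  let P : AddSubgroup V :=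
    { carrier := {v | ac g v + v ∈ S (s (i - 1))}
      zero_mem' := by show ac g 0 + 0 ∈ S (s (i - 1)); rw [ac_zero, add_zero]; exact zero_mem _
      add_mem' := fun {a b} x y => by show ac g (a + b) + (a + b) ∈ S (s (i - 1)); rw [ac_add, add_add_add_comm]; exact add_mem x y
      neg_mem' := fun {a} x => by rwa [show -a = a from neg_eq_of_add_eq_zero_left (vv a)] }
  exact S_ind P fun j h1 h2 => S_mono (ht i j h1) (h j h2)
def lvm (t : ℕ → ℕ) (m : ℕ) : Bool := (List.range 8).all fun k => ((m >>> (8 * k)) ^^^ 2 ^ k) % 256 < 2 ^ t k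
theorem R.lv (a : R g m) (t : ℕ → ℕ) (ht : ∀ i k, k < s i → t k ≤ s (i - 1)) (h : lvm t m = true) : g ∈ Lv s 1 :=
  lv_of t ht fun k hk => by
    rw [a.col k hk, ← vf_xor, mem_S]
    simpa using List.all_eq_true.1 h k (List.mem_range.2 hk)

/-- the flag stabilizer -/
def T : Subgroup Om := Lv .id 1
theorem T_of (h : ∀ k < 8, ac g (vf (2 ^ k)) + vf (2 ^ k) ∈ S k) : g ∈ T := lv_of id (fun i k (l : k < i) => show k ≤ i - 1 by omega) h
theorem R.T (a : R g m) (h : lvm id m = true) : g ∈ T := a.lv id (fun i k (l : k < i) => show k ≤ i - 1 by omega) h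
theorem pT : PG 2 T := PiN.of_isPGroup Nat.prime_two fun g => ⟨3, Subtype.ext (ac_ext fun v => by
  have := S0 (Lv_sq (Lv_sq (Lv_sq g.2)) 8 v (S8 v))
  rw [show ((g ^ 2 ^ 3 : T) : Om) = g.1 * g.1 * (g.1 * g.1) * (g.1 * g.1 * (g.1 * g.1)) by
      rw [coe_pow, show 2 ^ 3 = 8 from rfl]; simp only [pow_succ, pow_zero, one_mul, mul_assoc],
    coe_one, ac_one, eq_neg_of_add_eq_zero_left this, neg_eq_of_add_eq_zero_left (vv v)])⟩
def sU : ℕ →o ℕ := ⟨fun i => if i ≤ 3 then i else i + 1, fun a b h => by dsimp only; split_ifs <;> omega⟩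
def tU (k : ℕ) : ℕ := if k = 4 then 3 else k
theorem R.U (a : R g m) (h : lvm tU m = true) : g ∈ Lv sU 1 := a.lv tU (fun i k l => by
  change k < (if i ≤ 3 then i else i + 1) at l
  show (if k = 4 then 3 else k) ≤ (if i - 1 ≤ 3 then i - 1 else i - 1 + 1)
  split_ifs at l ⊢ <;> omega) h
/-- a chain of subgroups of `T` -/
def Hv (v j : ℕ) : Subgroup Om where
  carrier := {g | g ∈ T ∧ ac g (vf v) + vf v ∈ S j}
  one_mem' := ⟨one_mem _, by rw [ac_one, vv]; exact zero_mem _⟩
  mul_mem' {g h} a b := ⟨mul_mem a.1 b.1, by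
    have := add_mem (Lv_st (i := j) a.1 b.2) a.2
    rwa [ac_add, add_assoc, ← add_assoc (ac g (vf v)), vv, zero_add, ← ac_mul] at this⟩
  inv_mem' {g} a := ⟨inv_mem a.1, by
    have := Lv_st (i := j) (inv_mem a.1) a.2
    rwa [ac_add, ← ac_mul, inv_mul_cancel, ac_one, add_comm] at this⟩

theorem cardC : Nat.card (commutator Om) = 197406720 := by
  have := H11.card_omegaMinus_mul (F := ZMod 2) (m := 3) (by simp) (a := 1) (b := 1) (by decide)
  generalize Nat.card _ = a at this ⊢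
  simpa [Finset.prod_range_succ] using this
theorem idxC : (commutator Om).index = 2 := by
  have := H11.card_O_minus (F := ZMod 2) 3 (a := 1) (b := 1) (by decide)
  rw [← (commutator Om).index_mul_card, cardC] at this
  generalize (commutator Om).index = a at this ⊢
  simp [Finset.prod_range_succ] at this; omega
theorem pom : Nonempty (POmega (ZMod 2) Qm ≃* commutator Om) :=
  ⟨(QuotientGroup.quotientMulEquivOfEq (Subgroup.card_eq_one.1 ((H11.card_center_omegaMinus (by simp) (by simp)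
    (by decide)).trans (by simp)))).trans QuotientGroup.quotientBot⟩

end H5.O8
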