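/-
Standard subgroups of type `Ω^±_{2k}(2^n)`: the automorphisms of `Ω` (chunk AU of notes/OD.md).
-/
import Cfsg.Agent.H1.OD3
import Cfsg.Agent.H22.Tri4

set_option autoImplicit false
set_option linter.style.haveILetI false

namespace H5.OD
open _root_.Cfsg H12 Module Subgroup H19 H1.OD H1.OD.Geo
open scoped commutatorElement

variable (O : Geo)

/-- the natural representation -/
def nr : O.Om →* End O.F O.V where
  toFun g := g.1.toLinearMap
  map_one' := rfl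
  map_mul' _ _ := rfl

theorem rep : H22.PolarRep (CForm.ofQuad O.Q) (nr O) :=
  ⟨O.nd, fun _ _ h => gext fun x => LinearMap.congr_fun h x, gB, gq, fun e f z hy hz => by
    have h1 : O.B e f = 1 := hy.hef
    have h2 : O.B e z = 1 := hz.hef
    have o : O.Ok e (f + z) := ⟨hy.he, by simp [h1, h2]⟩
    refine ⟨O.rh e (f + z), ⟨rh_fix (BB e) (sw o.2), fun x hx => ⟨_, rh_perp o hx⟩⟩, (rh_ap o f).trans ?_⟩
    simp [h1, show O.q f = 0 from hy.hf, show O.q z = 0 from hz.hf, Bc z f]⟩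

theorem cen : center O.Om = ⊥ := eq_bot_iff.2 fun g h => iu_inj (cg_inj (MulEquiv.ext fun x => by
  rw [cg_iu, ← mem_center_iff.1 h]; simp))

theorem os : H22.OSet (CForm.ofQuad O.Q) (nr O) (CForm.ofQuad O.Q) (nr O) :=
  ⟨rep O, rep O, by have := O.dim; omega, by have := O.dim; omega⟩

theorem tra : H22.TrA (CForm.ofQuad O.Q) (nr O) := fun e u v e' u' v' h1 h2 h3 h4 h5 h6 => by
  have k : ∀ {e u v}, H22.SLn (CForm.ofQuad O.Q) e u → H22.SLn (CForm.ofQuad O.Q) e v → O.B u v ≠ 0 → Ind3 e u v :=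
    fun {e u v} h1 h2 h3 => Ind.ind3 h1.ind fun m => let ⟨c, d, m⟩ := sp2.1 m
      h3 (by simp [m, show O.B u e = 0 from h1.ba])
  exact witt3 (k h1 h2 h5) (k h3 h4 (h6.trans_ne h5)) (h3.Na.trans h1.Na.symm) (h3.Nb.trans h1.Nb.symm)
    (h4.Nb.trans h2.Nb.symm) (h3.ab.trans h1.ab.symm) (h4.ab.trans h2.ab.symm) h6

variable {O} {α : MulAut O.Om} {p e a b : O.V}

theorem rel {x y : O.Om} : H22.Rel (H11.quotCenterCongr α) x y ↔ α x = y := by
  rw [H22.Rel, H11.quotCenterCongr_mk, QuotientGroup.eq, cen, mem_bot, inv_mul_eq_one]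

theorem xl (h : H22.Ln (CForm.ofQuad O.Q) (nr O) (CForm.ofQuad O.Q) (nr O) (H11.quotCenterCongr α) p e a b) :
    ∃ s : O.F, s ≠ 0 ∧ Ln a (s • b) ∧ α (O.rh p e) = O.rh a (s • b) := by
  have l : Ln p e := ⟨h.1.ind, h.1.Na, h.1.Nb, h.1.ab⟩
  have l' : Ln a b := ⟨h.2.1.ind, h.2.1.Na, h.2.1.Nb, h.2.1.ab⟩
  obtain ⟨y, hy, r⟩ := h.2.2.1 (O.rh p e) fun x => ⟨O.B e x, O.B p x, by
    change (O.rh p e).1 x - x = _
    rw [rh_ap0 l.ok l.e0]; module⟩
  obtain ⟨s, k⟩ := (rep O).exists_isT h.2.1 hy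
  have e1 : α (O.rh p e) = O.rh a (s • b) := (rel.1 r).trans (gext fun x => (k x).trans (by
    rw [rh_ap0 (l'.okc s) (by simp [l'.e0]), sv, B_sl, smul_smul, mul_comm (O.B a x)]; rfl))
  have s0 : s ≠ 0 := by rintro rfl; exact l.z_ne (α.injective (by simp [e1]))
  exact ⟨s, s0, l'.smul s0, e1⟩

theorem toG (h : H22.MeetPres (CForm.ofQuad O.Q) (nr O) (CForm.ofQuad O.Q) (nr O) (H11.quotCenterCongr α)) :
    α ∈ (cg (O := O)).range := by
  obtain ⟨σ, k, L, k0, h1, h2⟩ := (os O).semiSim_of_meet (by have := O.dim; omega) h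
  obtain ⟨s, hs⟩ := sqrt k⁻¹
  let γ : O.Gam := mkG (fun x => s • L x) σ (by simp) (fun c x => by rw [h1.smul, smul_comm]) fun x => by
    rw [q_smul, hs, show O.q (L x) = _ from h1.N x, inv_mul_cancel_left₀ k0]; rfl
  obtain ⟨u, u0, hu⟩ := O.exv
  obtain ⟨f, hf, uf⟩ := part1 u0 hu
  refine ⟨γ, MulEquiv.ext fun g => inv_mul_eq_one.1 (mem_bot.1 ((cen O).le ((rep O).mem_center ⟨hu, hf, uf⟩
    (by have := O.dim; omega) fun w hw => ?_)))⟩
  obtain ⟨v, rfl⟩ := γ.1.1.surjective w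
  obtain ⟨c, hc⟩ := h2 g (α g) (rel.2 rfl) v (show O.q v = 0 by simpa using (gQ γ v).symm.trans hw)
  refine ⟨c, (cg γ g).1.injective ?_⟩
  change (cg γ g).1 (((cg γ g)⁻¹).1 ((α g).1 (s • L v))) = _
  rw [ap_inv, map_smul, map_smul, cg_ap', show (α g).1 (L v) = _ from hc, smul_comm]; rfl

theorem pair {u x : O.V} (h0 : p ≠ 0) (o : O.Ok p a) (ha : O.q a ≠ 0) (h : α (O.rh p a) = O.rh u x) :
    α ∈ (cg (O := O)).range := by
  obtain ⟨w, w1, w2, w3⟩ : ∃ w, O.B p w = 0 ∧ O.q w = 0 ∧ O.B a w ≠ 0 := by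
    by_contra! hc
    obtain ⟨c, rfl⟩ := pp1 (x := a) (v := p) fun y hy => isoS2 [p] (by simp) (O.B a · = 0)
      (fun x h1 => hc x (h1 p (by simp))) (by simp +contextual) (by simpa)
    simp [o.1] at ha
  obtain ⟨e, e1, e2, e3⟩ : ∃ e, O.B p e = 0 ∧ O.q e = 0 ∧ O.B a e = O.q a :=
    ⟨(O.q a / O.B a w) • w, by simp [w1], by simp [w2], by simp [w3]⟩
  have k : ∀ e, O.B p e = 0 → O.q e = 0 → O.B a e = O.q a → H22.SLn (CForm.ofQuad O.Q) p e := fun e e1 e2 e3 =>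
    ⟨ind_of h0 fun m => let ⟨c, m⟩ := sp1.1 m; ha (by simp [← e3, m, sw o.2]), o.1, e2, e1⟩
  have s1 := k e e1 e2 e3
  have s2 := k (a + e) (by simp [o.2, e1]) (by simp [e2, e3]) (by simp [e3])
  obtain ⟨a1, b1, l1⟩ := (os O).tot (H11.quotCenterCongr α) s1
  obtain ⟨c1, d1, l2⟩ := (os O).tot (H11.quotCenterCongr α) s2
  have hM : H22.Meet O.F p e p (a + e) := ⟨p, h0, .left _ _, .left _ _⟩
  by_cases hM' : H22.Meet O.F a1 b1 c1 d1
  · exact toG ((os O).meetPres_of_pair (tra O) (tra O) l1 l2 hM (fun h => ha (by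
      simpa [sw e3] using show O.B e (a + e) = 0 from h _ _ (.right _ _) (.right _ _))) hM')
  have hP := (((os O).comm_iff l1 l2).1 (.inr hM)).resolve_right hM'
  obtain ⟨s, s0, m1, r1⟩ := xl l1
  obtain ⟨t, t0, m2, r2⟩ := xl l2
  rw [show a = e + (a + e) by rw [add_comm a, vvl], rh_add ⟨o.1, e1⟩ ⟨o.1, s2.ab⟩, map_mul, r1, r2] at h
  have k2 : ∀ y, O.B u y = 0 → O.B x y = 0 → (O.B a1 y = 0 ∧ O.B b1 y = 0) ∧ O.B c1 y = 0 := fun y y1 y2 => by
    have := congrArg (·.1 y) h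
    simp only [mul_ap, rh_fix y1 y2, rh_ap0 m1.ok m1.e0, rh_ap0 m2.ok m2.e0, B_ar, B_sr, B_sl,
      show O.B a1 c1 = 0 from hP _ _ (.left _ _) (.left _ _), show O.B a1 d1 = 0 from hP _ _ (.left _ _) (.right _ _),
      show O.B b1 c1 = 0 from hP _ _ (.right _ _) (.left _ _), show O.B b1 d1 = 0 from hP _ _ (.right _ _) (.right _ _),
      mul_zero, add_zero, add_assoc, add_eq_left, smul_smul] at this
    have h1 : (s * O.B b1 y) • a1 + (O.B a1 y * s) • b1 = 0 := by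
      by_contra h1
      exact hM' ⟨_, h1, ⟨_, _, rfl⟩, t * O.B d1 y, O.B c1 y * t, ve.1 (by rw [← this]; abel)⟩
    have h2 := l1.2.1.ind _ _ h1
    have h3 := l2.2.1.ind (t * O.B d1 y) (O.B c1 y * t) (by rw [← this, ← add_zero (_ + _), ← h1]; abel)
    simp_all
  have i1 : H22.InSpan O.F u x a1 := pp2 fun y y1 y2 => (k2 y y1 y2).1.1
  have i2 : H22.InSpan O.F u x b1 := pp2 fun y y1 y2 => (k2 y y1 y2).1.2
  exact absurd ⟨c1, m2.i.ne, i1.exchange i2 l1.2.1.ind (pp2 fun y y1 y2 => (k2 y y1 y2).2), .left _ _⟩ hM'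

theorem exE {ι : Type} [Fintype ι] [DecidableEq ι] (Q : QuadraticForm O.F (ι → O.F)) {q : (ι → O.F) → O.F} (hq : ⇑Q = q)
    (h : (CForm.ofQuad O.Q).Iso (CForm.ofQuad Q)) : Nonempty (O.Om ≃* POmega O.F q) :=
  let ⟨ε, hε⟩ := h
  ⟨(H11.quotCenterEquivOfBot (cen O)).symm.trans (H11.quotCenterCongr
    (((commutator _).equivMapOfInjective _ (subtype_injective _)).symm.trans
      ((H11.commutatorCongr (H11.isomCongr ε hε)).trans (H11.omegaEquiv Q hq).symm)))⟩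

theorem gam_comm (γ δ : O.Gam) : ⁅γ, δ⁆ ∈ (iu (O := O)).range := by
  haveI : IsCyclic (RingAut O.F) := H14.isCyclic_ringAut O.F
  let f : O.Gam ⧸ (iu (O := O)).range →* RingAut O.F := QuotientGroup.lift _ O.fld (by rintro _ ⟨g, rfl⟩; rfl)
  have := commutative_of_cyclic_center_quotient f (fun x hx => mem_center_iff.2 fun y => by
    obtain ⟨x, rfl⟩ := QuotientGroup.mk_surjective x
    obtain ⟨y, rfl⟩ := QuotientGroup.mk_surjective y
    have h1 : O.fld x = 1 := hx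
    rw [← mul_inv_eq_one, mul_inv_rev, ← mul_assoc]
    exact (QuotientGroup.eq_one_iff (y * x * y⁻¹ * x⁻¹)).2 ((mul_in (γ := y * x * y⁻¹) (δ := x⁻¹)
      (by simp [← fld_ap, h1]) (by simp [← fld_ap, h1])).2 (by rw [inv_mem_iff, Normal.mem_comm_iff inferInstance]; simp)))
    γ δ
  rw [← QuotientGroup.eq_one_iff, commutatorElement_def]
  simp [this]

theorem au : AU := fun O => by
  have rt : ∀ (α : MulAut O.Om) g, Root g → Root (α g) := by
    rintro α _ ⟨p, e, l, rfl⟩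
    obtain ⟨a, b, h⟩ := (os O).tot (H11.quotCenterCongr α) ⟨l.i, l.p0, l.e0, l.b⟩
    obtain ⟨s, -, h1, h2⟩ := xl h
    exact h2 ▸ h1.root
  have top : 9 ≤ finrank O.F O.V ∨ ¬ (CForm.ofQuad O.Q).HasTS 4 → (cg (O := O)).range = ⊤ := fun h =>
    eq_top_iff.2 fun α _ => toG fun _ _ _ _ _ _ _ _ h1 h2 => ⟨(os O).meet_of h h1 h2, (os O).meet_of h h1.symm h2.symm⟩
  suffices _ ∧ _ from ⟨rt, this.1, this.2, fun _ _ _ _ _ => pair, fun h => top (.inl (by omega))⟩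
  by_cases h : 9 ≤ finrank O.F O.V ∨ ¬ (CForm.ofQuad O.Q).HasTS 4
  · refine ⟨by simp [top h], fun α hα => pow_mem (commutator_le.2 (fun β _ β' _ => ?_) hα) 3⟩
    obtain ⟨γ, rfl⟩ := (top h).ge (mem_top β)
    obtain ⟨δ, rfl⟩ := (top h).ge (mem_top β')
    obtain ⟨g, e⟩ := gam_comm γ δ
    exact ⟨g, by rw [← map_commutatorElement, ← e, cg_iu']⟩
  classical
  push Not at h
  have iso := quad_iso_qPlus O.nd (m := 4) (by have := O.dim; omega) h.2
  obtain ⟨E⟩ := exE _ (H11.coe_qPlus 4) iso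
  obtain ⟨τ, hτ⟩ := H22.exists_isTri (F := O.F)
  refine ⟨?_, fun α hα => ?_⟩
  · obtain ⟨ε, hε⟩ := iso
    obtain ⟨m, -, hm⟩ := exN (O := O) [] (by have := O.dim; simp; omega)
    have h1 := H22.card_eq_mul_of_surj O.fld fun σ => ⟨mkG (fun x => ε.symm (σ ∘ ε x)) σ
      (fun x y => by rw [← map_add, map_add ε]; congr 1; ext i; simp)
      (fun c x => by rw [← map_smul, map_smul ε]; congr 1; ext i; simp) fun x => by
        have := fun x => show H11.qPlus 4 O.F (ε x) = O.q x from hε.2 x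
        simp [← this, quadFormPlus], rfl⟩
    have h2 := card_mul_relIndex (show (iu (O := O)).range ≤ O.fld.ker by rintro _ ⟨g, rfl⟩; rfl)
    rw [relIndex_eq_two_iff.2 ⟨dl m, rfl, fun γ hγ => by
      rw [mul_in hγ rfl]; have := dl_out hm; tauto⟩, ← Nat.card_congr (MonoidHom.ofInjective iu_inj).toEquiv] at h2
    have h3 := (cg (O := O)).range.index_mul_card
    rw [← Nat.card_congr (MonoidHom.ofInjective cg_inj).toEquiv, h1, ← h2, Nat.card_congr (MulAut.congr E).toEquiv,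
      hτ.card_aut, if_pos CharTwo.two_eq_zero, ← Nat.card_congr E.toEquiv] at h3
    rw [Nat.eq_of_mul_eq_mul_right (Nat.mul_pos Nat.card_pos (Nat.mul_pos Nat.card_pos two_pos))
      (h3.trans (show _ = 3 * _ by ring))]
    decide
  · obtain ⟨φ⟩ := hτ.out_two CharTwo.two_eq_zero rfl
    let f := φ.toMonoidHom.comp ((QuotientGroup.mk' _).comp (MulAut.congr E).toMonoidHom)
    have h1 := MonoidHom.mem_ker.1
      (Abelianization.commutator_subset_ker (Equiv.Perm.sign.comp ((MonoidHom.fst _ _).comp f)) hα)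
    have h2 : (f α).2 = 1 := MonoidHom.mem_ker.1 (Abelianization.commutator_subset_ker ((MonoidHom.snd _ _).comp f) hα)
    have h3 : f (α ^ 3) = 1 := by
      rw [map_pow]
      exact Prod.ext ((by decide : ∀ σ : Equiv.Perm (Fin 3), Equiv.Perm.sign σ = 1 → σ ^ 3 = 1) _ h1) (by simp [h2])
    obtain ⟨g, e⟩ := (QuotientGroup.eq_one_iff _).1 (φ.injective (h3.trans (map_one φ).symm))
    exact ⟨E.symm g, (MulAut.congr E).injective (Eq.trans (MulEquiv.ext fun x => by simp) e)⟩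

end H5.OD
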