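/-
Standard subgroups of type `Ω^±_{2k}(2^n)`: the standing hypotheses (chunk BR of notes/OD.md).
-/
import Cfsg.Agent.H5.OD2
import Cfsg.Agent.H8.UP3
import Cfsg.Agent.S2096
import Cfsg.Agent.S2097
import Cfsg.Agent.S2099

set_option autoImplicit false
set_option linter.style.haveILetI false

namespace H5.OD
open _root_.Cfsg H12 Module Subgroup H19 H1.OD H1.OD.Geo

universe u

theorem br0 (O : Geo) {G : Type u} [Group G] [Finite G] (hF : IsSimpleGroup (generalizedFittingSubgroup G))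
    (hF' : ¬ IsMulCommutative (generalizedFittingSubgroup G)) (L : Subgroup G) (hL : IsStandardSubgroup L)
    (hR : ∀ R : Sylow 2 C(L), IsCyclic (R : Subgroup C(L))) {Y : Type} [Group Y] (E : O.Om ≃* Y)
    (ι : (L ⧸ oddCore L) ≃* Y) (hs : HasCyclicSchurMultiplier Y 1) :
    ∃ (ψ : O.Om →* G) (t : G), St ψ t ∧ (∃ g, g * t * g⁻¹ ≠ t ∧ g * t * g⁻¹ * t = t * (g * t * g⁻¹)) ∧
      ψ.range ≤ generalizedFittingSubgroup G := by
  obtain ⟨t, tt, t1, tK, nor, r1⟩ := H1.SR.setup hL hR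
  set M := generalizedFittingSubgroup G
  have k : ∀ N : Subgroup G, N.Normal → ¬ M ≤ N → N ≤ C(M) := fun N _ a =>
    cents_of_norms_disjoint le_normalizer_of_normal le_normalizer_of_normal (by
      rcases (inferInstance : (N.subgroupOf M).Normal).eq_bot_or_eq_top with h | h
      · exact disjoint_iff.1 (subgroupOf_eq_bot.1 h)
      · exact absurd (subgroupOf_eq_top.1 h) a)
  have hc : C(M) = ⊥ := by
    rcases (inferInstance : (C(M).subgroupOf M).Normal).eq_bot_or_eq_top with h | h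
    · exact (inf_eq_left.2 H1.centralizer_gf_le).symm.trans (disjoint_iff.1 (subgroupOf_eq_bot.1 h))
    · exact absurd ⟨⟨fun a b => Subtype.ext (subgroupOf_eq_top.1 h b.2 a a.2)⟩⟩ hF'
  have hO : oddCore G = ⊥ := eq_bot_iff.2 (hc ▸ k _ inferInstance fun q => by
    have := H20.sol_of_odd ((Nat.coprime_two_right.1 H1.pPrimeCore_coprime).of_dvd_nat (card_dvd_of_le q))
    exact hF' ⟨⟨IsSimpleGroup.comm_iff_isSolvable.2 this⟩⟩)
  have hLM : L ≤ M := (H1.pLayer_eq_layer (p := 2) hO ▸ H1.pc_le_pLayer (by rw [pow_two, tt])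
    (H1.Std.pc hL tK (H1.SR.ord2 tt t1))).trans H1.layer_le_gf
  obtain ⟨per, nt, qs⟩ := H1.isQuasisimple_iff.1 hL.1
  have hZ : oddCore L ≤ center L := (qs _ inferInstance).resolve_left fun r => by
    have h1 : Odd (Nat.card (oddCore L)) := Nat.coprime_two_right.1 H1.pPrimeCore_coprime
    rw [r, card_top] at h1
    have := Agent.S0205.result h1
    exact Group.IsSolvable.commutator_lt_top_of_nontrivial L |>.ne per.commutator_eq_top
  let ξ : L →* O.Om := (ι.trans E.symm).toMonoidHom.comp (QuotientGroup.mk' _)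
  have hξ : ξ.ker = oddCore L := by
    rw [MonoidHom.ker_comp_of_injective _ _ (ι.trans E.symm).injective, QuotientGroup.ker_mk']
  obtain ⟨η, hη⟩ := H23.exists_lift_of_schur_one ⟨top_perfect⟩ (H23.schur_congr_left hs E.symm) ξ
    ((ι.trans E.symm).surjective.comp (QuotientGroup.mk'_surjective _)) (hξ ▸ hZ) (.id _)
  have hη' : ∀ e, ξ (η e) = e := DFunLike.congr_fun hη
  have hr : η.range = ⊤ := by
    have h1 : ∀ a, ∃ e z, z ∈ center L ∧ a = η e * z := fun a =>
      ⟨ξ a, (η (ξ a))⁻¹ * a, hZ (hξ ▸ by rw [MonoidHom.mem_ker, map_mul, map_inv, hη', inv_mul_cancel]), by group⟩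
    refine eq_top_iff.2 (per.commutator_eq_top.ge.trans (commutator_le.2 fun a _ b _ => ?_))
    obtain ⟨e, z, hz, rfl⟩ := h1 a
    obtain ⟨e', z', hz', rfl⟩ := h1 b
    refine ⟨e * e' * e⁻¹ * e'⁻¹, ?_⟩
    simp only [map_mul, map_inv, commutatorElement_def, _root_.mul_inv_rev]
    rw [show η e * z * (η e' * z') * (z⁻¹ * (η e)⁻¹) * (z'⁻¹ * (η e')⁻¹) =
      η e * (z * (η e' * z') * z⁻¹) * (η e)⁻¹ * z'⁻¹ * (η e')⁻¹ by group, ← mem_center_iff.1 hz, mul_inv_cancel_right,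
      ← mul_assoc, mul_assoc _ z', ← mem_center_iff.1 hz']
    group
  have hψ : (L.subtype.comp η).range = L := by rw [MonoidHom.range_comp, hr, ← MonoidHom.range_eq_map, range_subtype]
  refine ⟨L.subtype.comp η, t, ⟨au O, L.subtype_injective.comp (Function.LeftInverse.injective hη'), tt, t1, hψ.symm ▸ tK,
    hψ.symm ▸ nor, fun k h1 h2 h3 => r1 k (hψ ▸ h2) h3 (mem_cent1.1 h1), ?_⟩,
    (H1.SR.alt tt t1 nor).resolve_left fun h => ?_, hψ.symm ▸ hLM⟩
  · rw [hψ]
    exact sol_mono (H8.UP.solv_cyc _ (hR default)) inf_le_right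
  · rw [hO, sup_bot_eq] at h
    have h1 : M ≤ L := by_contra fun a => nt.to_nonempty.elim fun _ =>
      (nontrivial_iff_ne_bot L).1 nt (eq_bot_iff.2 (hc ▸ k L h a))
    exact t1 (mem_bot.1 (hc ▸ cent_mono h1 tK))

theorem br : BR.{u} := by
  intro G _ _ hF hF' L hL hR k n hk hn hex F _ _ hq h
  haveI : CharP F 2 := charP_of_card_eq_prime_pow hq
  have ex : ∀ d, d = 2 * k → 10 ≤ d ∨ ∃ c : F, c ≠ 0 ∧ c ≠ 1 := fun d hd => or_iff_not_imp_left.2 fun h => by
    classical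
    by_contra! hc
    have := Finset.card_le_card (show (Finset.univ : Finset F) ⊆ {0, 1} from fun c _ => by have := hc c; simp; tauto)
    have h2 := Nat.pow_le_pow_right two_pos (show 2 ≤ n by omega)
    have := Finset.card_le_two (a := (0 : F)) (b := 1)
    rw [Finset.card_univ] at *
    omega
  have ev : Even ((2 ^ n) ^ k) := (Nat.even_pow.2 ⟨Nat.even_pow.2 ⟨even_two, by omega⟩, by omega⟩)
  have g4 : ∀ {a : ℕ}, Odd a → Nat.gcd 4 a = 1 := fun h => (Nat.coprime_two_left.2 h).pow_left 2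
  have om : Odd ((2 ^ n) ^ k - 1) := Nat.Even.sub_odd (Nat.one_le_pow _ _ (by positivity)) ev odd_one
  rcases h with ⟨⟨ι⟩⟩ | ⟨a, b, hab, ⟨ι⟩⟩
  · have d : finrank F (Fin k ⊕ Fin k → F) = 2 * k := by simp; omega
    let O : Geo := ⟨F, _, H11.qPlus k F, H11.qPlus_nondeg k, by omega, ex _ d⟩
    obtain ⟨E⟩ := exE (O := O) _ (H11.coe_qPlus k) CForm.Iso.refl
    obtain ⟨ψ, t, h1, h2, h3⟩ := br0 O hF hF' L hL hR E ι (by
      rcases Nat.even_or_odd k with e | e
      · have := Agent.S2097.result hq k hk e fun h => hex ⟨h.1, Nat.pow_right_injective le_rfl (h.2.trans (pow_one 2).symm)⟩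
        rw [show Nat.gcd 2 _ = 1 from Nat.coprime_two_left.2 om] at this
        exact H23.schur_congr_right this (@MulEquiv.ofUnique _ _ (uniqueOfSubsingleton 1) (uniqueOfSubsingleton 1) _ _)
      · exact g4 om ▸ Agent.S2096.result hq k (by obtain ⟨_, _⟩ := e; omega) e)
    exact ⟨O, ψ, t, h1, h2, h3, d, Nat.card_eq_fintype_card.trans hq⟩
  · have d : finrank F ((Fin (k - 1) ⊕ Fin (k - 1)) ⊕ Fin 2 → F) = 2 * k := by simp; omega
    let O : Geo := ⟨F, _, H11.qMinus (k - 1) F a b, H11.qMinus_nondeg _ (H11.disc_ne_zero_of_aniso hab), by omega, ex _ d⟩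
    obtain ⟨E⟩ := exE (O := O) _ (H11.coe_qMinus (k - 1) a b) CForm.Iso.refl
    obtain ⟨ψ, t, h1, h2, h3⟩ := br0 O hF hF' L hL hR E ι (by
      have := Agent.S2099.result hq k hk a b hab
      rwa [g4 ev.add_one] at this)
    exact ⟨O, ψ, t, h1, h2, h3, d, Nat.card_eq_fintype_card.trans hq⟩

end H5.OD
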