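import Cfsg.Agent.H11.SP2

/-! S5806: elementary abelian 2-subgroups of projective symplectic groups of dimension six. -/

set_option autoImplicit false

open Cfsg
namespace H5.S6
open Matrix Cfsg.Geo H27.Asch H6.SP
open H11.SP hiding dg

universe u

theorem dg_mul {k : Type*} [Field k] (d e : Fin 3 → kˣ) : dg d * dg e = dg (d * e) := by
  rw [dg, dg, diagonal_mul_diagonal]; congr 1; ext (i | i) <;> simp [mul_comm]

theorem dg_inj {k : Type*} [Field k] {d e : Fin 3 → kˣ} (h : dg d = dg e) : d = e :=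
  funext fun i => Units.ext (congrFun (diagonal_injective h) (.inl i))

theorem dg_one {k : Type*} [Field k] : dg (1 : Fin 3 → kˣ) = 1 := by
  rw [dg, ← diagonal_one]; congr 1; ext (i | i) <;> simp

theorem dg_neg {k : Type*} [Field k] (d : Fin 3 → kˣ) : dg (-d) = -dg d := by
  rw [dg, dg, diagonal_neg]; congr 1; ext (i | i) <;> simp

section
variable {k : Type*} [Field k] [IsAlgClosed k] (h2 : (2 : k) ≠ 0)
include h2

theorem inv_dg (S : Set (G6 k)) (hS : ∀ a ∈ S, a ∈ S6 k) (hc : ∀ a ∈ S, ∀ b ∈ S, a * b = b * a) (he : ∀ a ∈ S, a * a = 1) :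
    ∃ B : G6 k, ∀ a ∈ S, ∃ d, (B⁻¹ * a * B).val = dg d ∧ ∀ i, d i = 1 ∨ d i = -1 := by
  obtain ⟨B, -, h⟩ := dg' S hS hc fun a ha => ⟨2, by exact_mod_cast h2, (sq a).trans (he a ha)⟩
  refine ⟨B, fun a ha => (h a ha).imp fun d e => ⟨e, fun i => ?_⟩⟩
  have : d * d = 1 := dg_inj (by
    rw [← dg_mul, ← e, ← Units.val_mul, show B⁻¹ * a * B * (B⁻¹ * a * B) = B⁻¹ * (a * a) * B by group, he a ha, dg_one]; simp)
  exact (mul_self_eq_one_iff.1 (congrArg Units.val (congrFun this i))).imp Units.ext Units.ext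

theorem inv_comm {x y : G6 k} (hx : x ∈ S6 k) (e : x * x = 1) : x * y ≠ -(y * x) := fun c => by
  obtain ⟨B, h⟩ := inv_dg h2 {x} (by simpa) (by simp) (by simpa)
  obtain ⟨d, h, hd⟩ := h x rfl
  have t : (dg d).trace = 0 := by
    have a : (y⁻¹ * x * y).val.trace = x.val.trace := Matrix.trace_units_conj' _ _
    rw [mul_assoc, c, mul_neg, inv_mul_cancel_left, Units.val_neg, trace_neg, neg_eq_iff_add_eq_zero, ← two_mul] at a
    rw [← h]; exact (Matrix.trace_units_conj' _ _).trans ((mul_eq_zero.1 a).resolve_left h2)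
  have k (s : kˣ) (e : d = fun _ => s) (hs : s = 1 ∨ s = -1) : False := by
    have : x = 1 ∨ x = -1 := hs.imp (fun a => by
      subst a
      have : B⁻¹ * x * B = 1 := Units.ext (h.trans (e ▸ dg_one))
      rw [show x = B * (B⁻¹ * x * B) * B⁻¹ by group, this]; simp) fun a => by
      subst a
      have : B⁻¹ * x * B = -1 := Units.ext (h.trans (e ▸ (dg_neg 1).trans (congrArg _ dg_one)))
      rw [show x = B * (B⁻¹ * x * B) * B⁻¹ by group, this]; simp
    have a : y = -y := by rcases this with rfl | rfl <;> simpa [neg_eq_iff_eq_neg] using c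
    have := congrArg (fun g : G6 k => (g * y⁻¹).val (.inl 0) (.inl 0)) a
    simp only [neg_mul, mul_inv_cancel, Units.val_neg, Units.val_one, Matrix.neg_apply, one_apply_eq] at this
    exact h2 (by linear_combination this)
  simp only [dg, trace_diagonal, Fintype.sum_sum_type, Fin.sum_univ_three, Sum.elim_inl, Sum.elim_inr] at t
  rcases hd 0 with a | a <;> rcases hd 1 with b | b <;> rcases hd 2 with c | c
  on_goal 8 => exact k _ (funext fun i => by fin_cases i <;> assumption) (.inr rfl)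
  · exact k _ (funext fun i => by fin_cases i <;> assumption) (.inl rfl)
  all_goals simp only [a, b, c, inv_one, inv_neg, Units.val_one, Units.val_neg] at t
  all_goals first | exact h2 (by linear_combination t) | exact h2 (by linear_combination -t)

variable {G : Type*} [Group G] {P : Subgroup (G6 k)} {π : P →* G} (h : Rq P π)
include h

theorem core (A : Subgroup G) (hA : ∀ x ∈ A, x * x = 1) :
    ∃ B : Subgroup G, Nat.card B ≤ 4 ∧ ∀ a, a ∈ B ↔ a ∈ A ∧ ∃ x, π x = a ∧ x * x = 1 := by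
  have cm {x y : P} (hx : π x ∈ A) (hy : π y ∈ A) (e : x * x = 1) : x * y = y * x :=
    Subtype.ext ((lift_eq h (x := x * y) (y := y * x) (by
      rw [map_mul, map_mul, ← inv_eq_of_mul_eq_one_right (hA _ (mul_mem hx hy)), _root_.mul_inv_rev,
        inv_eq_of_mul_eq_one_right (hA _ hx), inv_eq_of_mul_eq_one_right (hA _ hy)])).resolve_right
      (inv_comm h2 (h.sp x.2) (congrArg Subtype.val e)))
  let B : Subgroup G :=
    { carrier := {a | a ∈ A ∧ ∃ x, π x = a ∧ x * x = 1}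
      one_mem' := ⟨one_mem _, 1, map_one _, one_mul _⟩
      mul_mem' := by
        rintro _ _ ⟨ha, x, rfl, e⟩ ⟨hb, y, rfl, f⟩
        exact ⟨mul_mem ha hb, x * y, map_mul _ _ _, by rw [mul_assoc, ← mul_assoc y, ← cm ha hb e, mul_assoc, f, mul_one, e]⟩
      inv_mem' := by
        rintro _ ⟨ha, x, rfl, e⟩
        exact ⟨inv_mem ha, x⁻¹, map_inv _ _, by rw [← _root_.mul_inv_rev, e, inv_one]⟩ }
  refine ⟨B, ?_, fun _ => .rfl⟩
  choose l l1 l2 using fun b : B => b.2.2
  obtain ⟨C, hC⟩ := inv_dg h2 (Set.range fun b => (l b).1) (by rintro _ ⟨b, rfl⟩; exact h.sp (l b).2)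
    (by rintro _ ⟨a, rfl⟩ _ ⟨b, rfl⟩; exact congrArg Subtype.val (cm (l1 a ▸ a.2.1) (l1 b ▸ b.2.1) (l2 a)))
    (by rintro _ ⟨b, rfl⟩; exact congrArg Subtype.val (l2 b))
  choose d d1 d2 using fun b => hC _ ⟨b, rfl⟩
  refine (Nat.card_le_card_of_injective (fun b => (d b 0 = d b 1, d b 0 = d b 2)) fun a b e => ?_).trans (by simp)
  simp only [Prod.mk.injEq, eq_iff_iff] at e
  have n : (1 : kˣ) ≠ -1 := fun e => h2 (by have : (1 : k) = -1 := congrArg Units.val e; linear_combination this)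
  have : d a = d b ∨ d a = -d b := by
    simp only [funext_iff, Fin.forall_fin_succ, Pi.neg_apply, IsEmpty.forall_iff, and_true]
    rcases d2 a 0 with a0 | a0 <;> rcases d2 a 1 with a1 | a1 <;> rcases d2 a 2 with a2 | a2 <;>
      rcases d2 b 0 with b0 | b0 <;> rcases d2 b 1 with b1 | b1 <;> rcases d2 b 2 with b2 | b2 <;>
      simp [a0, a1, a2, b0, b1, b2, n, n.symm] at e ⊢
  refine Subtype.ext ((l1 a).symm.trans (.trans (mul_inv_eq_one.1 ?_) (l1 b)))
  rw [← map_inv, ← map_mul, h.ker]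
  refine this.imp (fun e => ?_) fun e => ?_
  · have : C⁻¹ * l a * C = C⁻¹ * l b * C := Units.ext (by rw [d1, d1, e])
    simpa [mul_inv_eq_one] using this
  · have : C⁻¹ * l a * C = C⁻¹ * (-l b) * C := Units.ext (by rw [d1, e, dg_neg, ← d1]; simp)
    simpa [mul_inv_eq_iff_eq_mul] using mul_left_cancel (mul_right_cancel this)

theorem two : Two G := fun A hA => by
  obtain ⟨B, c, hB⟩ := core h2 h A hA
  have := h.fin
  refine ⟨B, fun a ha => ((hB a).1 ha).1, c, ?_, fun x hx y hy c => ?_⟩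
  · have q {x : P} (hx : π x ∈ A) (n : π x ∉ B) : x.1 * x.1 = -1 :=
      ((h.ker (x * x)).1 (by rw [map_mul, hA _ hx])).resolve_left fun e => n ((hB _).2 ⟨hx, x, rfl, Subtype.ext e⟩)
    have ac {x y : P} (hx : π x ∈ A) (hy : π y ∈ A) (n : π x ∉ B) (n' : π y ∉ B) (m : π x * π y ∉ B) :
        y.1 * x.1 = -(x.1 * y.1) := by
      have : x.1 * y * (x * y) = -1 := q (x := x * y) (map_mul π x y ▸ mul_mem hx hy) (map_mul π x y ▸ m)
      calc _ = -(x.1 * x * (y * x) * (y * y)) * -1 := by rw [q hx n, q hy n']; simp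
        _ = x * (x * y * (x * y)) * y := by simp only [mul_assoc, mul_neg, neg_mul, mul_one, neg_neg]
        _ = _ := by rw [this]; simp
    obtain ⟨r, hr⟩ : ∃ r : Fin 4 → G, ∀ c ∈ A, ∃ i, r i * c ∈ B := by
      by_cases h1 : ∀ c ∈ A, c ∈ B
      · exact ⟨1, fun c hc => ⟨0, by simpa using h1 c hc⟩⟩
      push Not at h1
      obtain ⟨a, ha, na⟩ := h1
      by_cases h1 : ∀ c ∈ A, c ∈ B ∨ a * c ∈ B
      · exact ⟨![1, a, 1, 1], fun c hc => (h1 c hc).elim (fun e => ⟨0, by simpa⟩) fun e => ⟨1, e⟩⟩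
      push Not at h1
      obtain ⟨b, hb, nb, nab⟩ := h1
      refine ⟨![1, a, b, a * b], fun c hc => by_contra fun n => ?_⟩
      push Not at n
      obtain ⟨x, rfl⟩ := h.sur a
      obtain ⟨y, rfl⟩ := h.sur b
      obtain ⟨z, rfl⟩ := h.sur c
      have n0 : π z ∉ B := by simpa using n 0
      have e := ac (x := x * y) (map_mul π x y ▸ mul_mem ha hb) hc (map_mul π x y ▸ nab) n0 (map_mul π x y ▸ n 3)
      rw [Subgroup.coe_mul, ← mul_assoc, ac ha hc na n0 (n 1), neg_mul, mul_assoc, ac hb hc nb n0 (n 2), mul_neg, neg_neg,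
        mul_assoc] at e
      exact inv_comm h2 (one_mem _) (one_mul 1) (y := x * (y * z)) (by rwa [one_mul, mul_one])
    choose i hi using hr
    simpa using Nat.card_le_card_of_injective (fun c : A => (i c c.2, (⟨_, hi c c.2⟩ : B))) fun a b e => by
      simp only [Prod.mk.injEq, Subtype.mk.injEq] at e
      exact Subtype.ext (mul_left_cancel (e.1 ▸ e.2))
  · obtain ⟨-, x, rfl, e⟩ := (hB x).1 hx
    obtain ⟨g, rfl⟩ := isConj_iff.1 c
    obtain ⟨g, rfl⟩ := h.sur g
    exact (hB _).2 ⟨hy, g * x * g⁻¹, by simp, by rw [conj_mul, e]; simp⟩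
end

theorem el : EL.{u} := by
  intro k G _ _ P π h2 h
  obtain ⟨π', h', e⟩ := upq (algebraMap k (AlgebraicClosure k)) h
  have h3 : (2 : AlgebraicClosure k) ≠ 0 := by
    rw [← map_ofNat (algebraMap k (AlgebraicClosure k))]; exact (map_ne_zero _).2 h2
  refine ⟨two h3 h', fun i A _ hA => ?_⟩
  obtain ⟨B, c, hB⟩ := core h3 h' A fun a ha => (sq a).symm.trans (hA a ha)
  have := h.fin
  refine (Subgroup.card_le_of_le fun a ha => (hB a).2 ⟨ha, ?_⟩).trans c
  obtain ⟨x, rfl⟩ := h.sur a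
  have : x * x = 1 := i (by rw [map_mul, map_one, ← sq, hA _ ha])
  exact ⟨_, e x, Subtype.ext ((map_mul _ _ _).symm.trans ((congrArg _ (congrArg Subtype.val this)).trans (map_one _)))⟩

end H5.S6
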