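import Cfsg.Agent.H6.SP0
import Cfsg.Agent.H23.SzTrace

/-! S5806: groups with a fused elementary abelian subgroup of order at least eight. -/

set_option autoImplicit false

open Cfsg
namespace H5.S6
open H6.SP Matrix
open scoped MatrixGroups

universe u

/-- an irreducibly fused elementary abelian subgroup has order at most four -/
theorem irr {G V : Type*} [Group G] [Finite G] [Group V] (h : H6.SP.Two G) (f : V →* G) (hV : ∀ v : V, v * v = 1)
    (I : ∀ W : Subgroup V, (∀ v ∈ W, ∀ w, IsConj (f v) (f w) → w ∈ W) → W = ⊥ ∨ W = ⊤) (n : ∃ v, f v ≠ 1) :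
    Nat.card V ≤ 4 := by
  have i : Function.Injective f := f.ker_eq_bot_iff.1 ((I _ fun v hv w c => isConj_one_right.1 (hv ▸ c)).resolve_right
    fun e => n.elim fun v hv => hv (e ▸ Subgroup.mem_top v : v ∈ f.ker))
  obtain ⟨B, l, c, c', k⟩ := h f.range (by rintro _ ⟨v, rfl⟩; rw [← map_mul, hV, map_one])
  rw [Nat.card_congr (MonoidHom.ofInjective i).toEquiv]
  rcases I (B.comap f) (fun v hv w c => k _ hv _ ⟨w, rfl⟩ c) with e | e
  · rwa [← Subgroup.map_comap_eq_self l, e, Subgroup.map_bot, Subgroup.card_bot] at c'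
  · rwa [← Subgroup.map_comap_eq_self l, e, ← MonoidHom.range_eq_map] at c

theorem irr' {G V : Type*} [Group G] [Finite G] [Group V] (h : H6.SP.Two G) (f : V →* G) (hV : ∀ v : V, v * v = 1)
    (I : ∀ v ≠ 1, ∀ w ≠ 1, IsConj (f v) (f w)) (n : ∃ v, f v ≠ 1) : Nat.card V ≤ 4 :=
  irr h f hV (fun W hW => or_iff_not_imp_left.2 fun e => eq_top_iff.2 fun w _ => by
    obtain ⟨v, hv⟩ := Subgroup.ne_bot_iff_exists_ne_one.1 e
    by_cases a : w = 1
    exacts [a ▸ one_mem _, hW v v.2 w (I _ (fun e => hv (Subtype.ext e)) w a)]) n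

abbrev V8 := Multiplicative (ZMod 2 × ZMod 2 × ZMod 2)

/-- a Singer cycle -/
def singer : Equiv.Perm V8 := ⟨fun v => .ofAdd (v.toAdd.2.2, v.toAdd.1 + v.toAdd.2.2, v.toAdd.2.1),
  fun v => .ofAdd (v.toAdd.1 + v.toAdd.2.1, v.toAdd.2.2, v.toAdd.1), by decide +kernel, by decide +kernel⟩

theorem gk2 : GK2.{u} := by
  intro G _ _ h
  refine ⟨fun r hr h8 ⟨E, _, _, hE, ⟨e⟩⟩ => ?_, fun n hn ⟨e⟩ => ?_, fun E _ _ hE ⟨e⟩ => ?_⟩
  · have c : ringChar E = 2 := FiniteField.even_card_iff_char_two.2 (hE ▸ Nat.even_iff.1 hr)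
    have := ringChar.of_eq c
    let u : Multiplicative E →* SL(2, E) := .mk' (fun t => ⟨!![1, t.toAdd; 0, 1], by simp⟩) fun a b =>
      Subtype.ext (show _ = !![1, a.toAdd; 0, 1] * !![1, b.toAdd; 0, 1] by simp [add_comm])
    have := irr' h (e.symm.toMonoidHom.comp ((QuotientGroup.mk' _).comp u)) (fun v => CharTwo.add_self_eq_zero v.toAdd)
      (fun v hv w hw => e.symm.toMonoidHom.map_isConj ((QuotientGroup.mk' _).map_isConj (a := u v) (b := u w) ?_))
      ⟨.ofAdd 1, fun a => ?_⟩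
    · rw [Nat.card_congr Multiplicative.toAdd, Nat.card_eq_fintype_card] at this
      omega
    · obtain ⟨a, ha⟩ := FiniteField.isSquare_of_char_two c (w.toAdd / v.toAdd)
      have v0 : v.toAdd ≠ 0 := hv
      have a0 : a ≠ 0 := fun e => div_ne_zero (show w.toAdd ≠ 0 from hw) v0 (by rw [ha, e, mul_zero])
      refine isConj_iff.2 ⟨⟨!![a, 0; 0, a⁻¹], by simp [a0]⟩, mul_inv_eq_iff_eq_mul.2 (Subtype.ext ?_)⟩
      show !![a, 0; 0, a⁻¹] * !![1, v.toAdd; 0, 1] = !![1, w.toAdd; 0, 1] * !![a, 0; 0, a⁻¹]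
      simp [(div_eq_iff v0).1 ha]
      field_simp
    · obtain ⟨_, -, b⟩ := Matrix.SpecialLinearGroup.mem_center_iff.1 ((QuotientGroup.eq_one_iff (u _)).1 (e.symm.map_eq_one_iff.1 a))
      have : (Matrix.scalar (Fin 2) _) 0 1 = !![1, (1 : E); 0, 1] 0 1 := congrFun₂ b 0 1
      simp at this
  · obtain ⟨ι⟩ := Function.Embedding.nonempty_of_card_le (α := V8) (β := Fin n) (by simpa)
    let φ : alternatingGroup V8 →* alternatingGroup (Fin n) :=
      ((Equiv.Perm.viaEmbeddingHom ι).comp (Subgroup.subtype _)).codRestrict _ fun x => Equiv.Perm.mem_alternatingGroup.2 (by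
        rw [MonoidHom.comp_apply, Equiv.Perm.viaEmbeddingHom_apply, Equiv.Perm.viaEmbedding, Equiv.Perm.sign_extendDomain]
        exact x.2)
    let f : V8 →* alternatingGroup V8 := (MulAction.toPermHom V8 V8).codRestrict _
      (by decide +kernel : ∀ v, Equiv.Perm.sign (MulAction.toPerm v) = 1)
    have := irr' h (e.symm.toMonoidHom.comp (φ.comp f)) (by decide +kernel)
      (fun v hv w hw => e.symm.toMonoidHom.map_isConj (φ.map_isConj ?_)) ⟨.ofAdd 1, fun a => ?_⟩
    · simp at this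
    · obtain ⟨k, hk⟩ := (by decide +kernel : ∀ v ≠ 1, ∀ w ≠ 1, ∃ k : Fin 7, ∀ x,
        (singer ^ k.1) (v * x) = w * (singer ^ k.1) x) v hv w hw
      exact isConj_iff.2 ⟨⟨singer ^ k.1, pow_mem (by decide +kernel : Equiv.Perm.sign singer = 1) _⟩,
        mul_inv_eq_iff_eq_mul.2 (Subtype.ext (Equiv.ext hk))⟩
    · exact absurd (Equiv.Perm.viaEmbeddingHom_injective ι ((congrArg Subtype.val (e.symm.map_eq_one_iff.1 a)).trans
        (map_one _).symm)) (by decide +kernel)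
  · have hE' : Fintype.card E = 2 ^ (2 * 1 + 1) := hE
    let _ := H23.Sz.titsOfCard hE'
    let _ : H23.Sz.Model E (Lie.Sz E 4) := H23.Sz.lieModel hE'
    let f : Multiplicative E →* Lie.Sz E 4 := .mk' (fun t => H23.Sz.T 0 t.toAdd) fun a b => by simp [H23.Sz.T_mul]
    have := irr' h (e.symm.toMonoidHom.comp f) (fun v => CharTwo.add_self_eq_zero v.toAdd)
      (fun v hv w hw => e.symm.toMonoidHom.map_isConj (H23.Sz.isConj_T0 hv hw))
      ⟨.ofAdd 1, fun a => one_ne_zero (H23.Sz.T_eq_one.1 (e.symm.map_eq_one_iff.1 a)).2⟩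
    rw [Nat.card_congr Multiplicative.toAdd, Nat.card_eq_fintype_card] at this
    omega

end H5.S6
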