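import Cfsg.Agent.H5.S6c
import Cfsg.Agent.H11.O6Minus

/-! S5806: the image of `2^{1+4}` in the four-dimensional classical groups. -/

set_option autoImplicit false

open Cfsg
namespace H5.S6
open H6.SP Matrix
open scoped MatrixGroups

universe u

abbrev Z2 := Multiplicative (ZMod 2)

def hz {G : Type*} [Group G] (y : G) (h : y * y = 1) : Z2 →* G := .mk' (fun a => if a = 1 then 1 else y) fun a b => by
  rcases (by decide : ∀ a : Z2, a = 1 ∨ a = .ofAdd 1) a with rfl | rfl <;>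
    rcases (by decide : ∀ a : Z2, a = 1 ∨ a = .ofAdd 1) b with rfl | rfl <;>
    simp [h, show Multiplicative.ofAdd (1 : ZMod 2) * .ofAdd 1 = 1 by decide]

def ev : (Fin 4 → Z2) →* (Fin 5 → Z2) := .mk' (fun v => ![v 0, v 1, v 2, v 3, v 0 * v 1 * v 2 * v 3]) (by decide +kernel)
def sh : (Fin 5 → Z2) →* (Fin 5 → Z2) := .mk' (fun v i => v (i - 1)) fun _ _ => rfl
def s4 (v : Fin 4 → Z2) : Fin 4 → Z2 := ![v 0 * v 1 * v 2 * v 3, v 0, v 1, v 2]

theorem five {G : Type*} [Group G] [Finite G] (h : H6.SP.Two G) (y : Fin 5 → G) (c : G) (h0 : y 0 * y 0 = 1)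
    (h0' : ∀ j, Commute (y 0) (y j)) (h3 : ∀ i, c * y i * c⁻¹ = y (i + 1)) : y 0 * y 1 = 1 := by
  have st : ∀ i, (y i * y i = 1 ∧ ∀ j, Commute (y i) (y j)) → y (i + 1) * y (i + 1) = 1 ∧ ∀ j, Commute (y (i + 1)) (y j) :=
    fun i a => ⟨by rw [← h3, conj_mul, a.1, mul_one, mul_inv_cancel], fun j => by
      rw [← sub_add_cancel j 1, ← h3, ← h3]; exact (a.2 _).conj c⟩
  have al : ∀ i, y i * y i = 1 ∧ ∀ j, Commute (y i) (y j) := fun i => by
    have a1 := st 0 ⟨h0, h0'⟩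
    have a3 := st 2 (st 1 a1)
    fin_cases i
    exacts [⟨h0, h0'⟩, a1, st 1 a1, a3, st 3 a3]
  obtain ⟨F, s⟩ : ∃ F : (Fin 5 → Z2) →* G, ∀ i x, F (Pi.mulSingle i x) = if x = 1 then 1 else y i :=
    ⟨MonoidHom.noncommPiCoprod (fun i => hz (y i) (al i).1) fun i j _ a b => by
      show Commute (if _ then _ else _) (if _ then _ else _)
      split_ifs
      exacts [.refl _, .one_left _, .one_right _, (al i).2 j], fun i x => MonoidHom.noncommPiCoprod_mulSingle ..⟩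
  have k : F.comp sh = (MulAut.conj c).toMonoidHom.comp F := MonoidHom.pi_ext fun i x => by
    show F (sh _) = c * F _ * c⁻¹
    rw [(by decide +kernel : ∀ i x, sh (Pi.mulSingle i x) = Pi.mulSingle (i + 1) x), s, s]
    split_ifs
    exacts [by simp, (h3 i).symm]
  by_contra n
  have := irr h (F.comp ev) (by decide +kernel) (fun W hW => or_iff_not_imp_left.2 fun e => eq_top_iff.2 fun w _ => ?_)
    ⟨![.ofAdd 1, .ofAdd 1, 1, 1], ?_⟩
  · simp at this
  · obtain ⟨v, hv⟩ := Subgroup.ne_bot_iff_exists_ne_one.1 e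
    have t : ∀ v ∈ W, s4 v ∈ W := fun v hv => hW v hv _ (isConj_iff.2 ⟨c, by
      show _ = F (ev (s4 v))
      rw [(by decide +kernel : ∀ v, ev (s4 v) = sh (ev v))]
      exact (DFunLike.congr_fun k _).symm⟩)
    obtain ⟨a, rfl⟩ := (by decide +kernel : ∀ v ≠ 1, ∀ w, ∃ a : Fin 4 → Fin 2,
      w = v ^ (a 0).1 * s4 v ^ (a 1).1 * s4 (s4 v) ^ (a 2).1 * s4 (s4 (s4 v)) ^ (a 3).1) v.1 (fun e => hv (Subtype.ext e)) w
    exact mul_mem (mul_mem (mul_mem (pow_mem v.2 _) (pow_mem (t _ v.2) _)) (pow_mem (t _ (t _ v.2)) _))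
      (pow_mem (t _ (t _ (t _ v.2))) _)
  · show F (ev _) ≠ 1
    rwa [show ev ![.ofAdd 1, .ofAdd 1, 1, 1] = Pi.mulSingle 0 (.ofAdd 1) * Pi.mulSingle 1 (.ofAdd 1) by decide +kernel, map_mul,
      s, s, if_neg (by decide), if_neg (by decide)]

section
variable {E : Type*} [Field E] {a b : E}

def γ (a b : E) : Fin 5 → Matrix (Fin 4) (Fin 4) E := ![!![1, 0, 0, 0; 0, -1, 0, 0; 0, 0, 1, 0; 0, 0, 0, -1],
  !![0, -1, 0, 0; -1, 0, 0, 0; 0, 0, 0, -1; 0, 0, -1, 0], !![0, 0, 0, 1; 0, 0, -1, 0; 0, -1, 0, 0; 1, 0, 0, 0],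
  !![0, a, 0, b; -a, 0, -b, 0; 0, b, 0, -a; -b, 0, a, 0], !![0, b, 0, -a; -b, 0, a, 0; 0, -a, 0, -b; a, 0, b, 0]]
def Cm (a b : E) : Matrix (Fin 4) (Fin 4) E :=
  !![1 + a, b, b, 1 - a; -1 - a, b, -b, 1 - a; b, -1 - a, 1 - a, -b; -b, -1 - a, a - 1, -b]
def J4 : Matrix (Fin 4) (Fin 4) E := !![0, 0, -1, 0; 0, 0, 0, -1; 1, 0, 0, 0; 0, 1, 0, 0]

theorem γ_sq : γ a b 0 * γ a b 0 = 1 := by
  ext s t; fin_cases s <;> fin_cases t <;> simp [γ, Matrix.mul_apply, Fin.sum_univ_four]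

theorem γ_anti (j : Fin 5) (n : j ≠ 0) : γ a b 0 * γ a b j = -1 * (γ a b j * γ a b 0) := by
  fin_cases j <;> simp [γ] at n ⊢

theorem Cm_γ (h : a ^ 2 + b ^ 2 = -1) (i : Fin 5) : Cm a b * γ a b i = γ a b (i + 1) * Cm a b := by
  ext s t; fin_cases i <;> fin_cases s <;> fin_cases t <;> simp [γ, Cm, Matrix.mul_apply, Fin.sum_univ_four] <;> grind

theorem Cm_J (h : a ^ 2 + b ^ 2 = -1) : Cm a b * J4 * (Cm a b)ᵀ = (4 : E) • J4 := by
  ext s t; fin_cases s <;> fin_cases t <;> simp [J4, Cm, Matrix.mul_apply, Fin.sum_univ_four] <;> grind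

theorem Cm_det (h : a ^ 2 + b ^ 2 = -1) : (Cm a b).det = 16 := by
  simp [Cm, det_succ_row_zero, Fin.sum_univ_succ, Fin.succAbove]; grind

theorem Cm_u (h : a ^ 2 + b ^ 2 = -1) (σ : E →+* E) (ha : σ a = -a) (hb : σ b = -b) :
    (Cm a b)ᵀ * (Cm a b).map σ = (4 : E) • 1 := by
  ext s t; fin_cases s <;> fin_cases t <;> simp [Cm, Matrix.mul_apply, Fin.sum_univ_four, ha, hb] <;> grind

theorem key (h : a ^ 2 + b ^ 2 = -1) (h2 : (2 : E) ≠ 0) {Γ G : Type*} [Group Γ] [Group G] [Finite G]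
    (ι : Γ →* Matrix (Fin 4) (Fin 4) E) (i : Function.Injective ι) (e : G ≃* Γ ⧸ Subgroup.center Γ) (g k : Γ)
    (hg : ι g = γ a b 0) (hk : ι k = (2 : E)⁻¹ • Cm a b) : ¬ H6.SP.Two G := fun T => by
  have s : ∀ j x, ι x = γ a b j → ι (k * x * k⁻¹) = γ a b (j + 1) := fun j x hx => by
    rw [map_mul, map_mul, hx, hk, smul_mul_assoc, Cm_γ h, ← mul_smul_comm, ← hk, mul_assoc, ← map_mul, mul_inv_cancel, map_one,
      mul_one]
  have : ∀ j, ∃ x, ι x = γ a b j := fun j => by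
    have a2 := s 1 _ (s 0 g hg)
    fin_cases j
    exacts [⟨g, hg⟩, ⟨_, s 0 g hg⟩, ⟨_, a2⟩, ⟨_, s 2 _ a2⟩, ⟨_, s 3 _ (s 2 _ a2)⟩]
  choose y hy using this
  have z : ∀ x, ι x = -1 → x ∈ Subgroup.center Γ := fun x hx =>
    Subgroup.mem_center_iff.2 fun w => i (by simp [hx])
  let π := e.symm.toMonoidHom.comp (QuotientGroup.mk' (Subgroup.center Γ))
  have p : ∀ x, π x = 1 ↔ x ∈ Subgroup.center Γ := fun x => e.symm.map_eq_one_iff.trans (QuotientGroup.eq_one_iff x)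
  have := five T (fun j => π (y j)) (π k) (by rw [← map_mul, i (a₁ := y 0 * y 0) (a₂ := 1) (by rw [map_mul, hy, γ_sq, map_one]), map_one])
    (fun j => ?_) fun j => by rw [← map_inv, ← map_mul, ← map_mul, i ((s j _ (hy j)).trans (hy _).symm)]
  · have := congrArg ι (Subgroup.mem_center_iff.1 ((p (y 0 * y 1)).1 (by rwa [map_mul])) (y 0))
    simp only [map_mul, hy] at this
    have := congrFun₂ this 0 1
    simp [γ] at this
    exact h2 (by linear_combination -this)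
  · rcases eq_or_ne j 0 with rfl | n
    · exact .refl _
    · refine commutatorElement_eq_one_iff_commute.1 ?_
      rw [← map_commutatorElement, p]
      refine z _ ?_
      rw [commutatorElement_def, mul_assoc, ← _root_.mul_inv_rev, map_mul, map_mul, hy, hy, γ_anti j n, ← hy, ← hy, ← map_mul,
        mul_assoc, ← map_mul, mul_inv_cancel, map_one, mul_one]

end

theorem two_ne {E : Type*} [Field E] [Fintype E] (h : Odd (Fintype.card E)) : (2 : E) ≠ 0 :=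
  Ring.two_ne_zero fun c => by have := FiniteField.even_card_of_char_two c; have := Nat.odd_iff.1 h; omega

theorem ex_ab (E : Type*) [Field E] [Fintype E] : ∃ a b : E, a ^ 2 + b ^ 2 = -1 := by
  have := ringChar.charP E
  have : NeZero (ringChar E) := ⟨CharP.char_ne_zero_of_finite E _⟩
  obtain ⟨a, b, h⟩ := CharP.sq_add_sq E (ringChar E) (-1)
  exact ⟨a, b, by simpa using h⟩

theorem ex_ab' {E : Type*} [Field E] (h2 : (2 : E) ≠ 0) (σ : E →+* E) (s : ∀ x, σ (σ x) = x) (n : σ ≠ RingHom.id E)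
    (i : E) (hi : i * i = -1) : ∃ a b : E, a ^ 2 + b ^ 2 = -1 ∧ σ a = -a ∧ σ b = -b := by
  have : (σ i - i) * (σ i + i) = 0 := by
    have := congrArg σ hi
    rw [map_mul, map_neg, map_one] at this
    linear_combination this - hi
  rcases mul_eq_zero.1 this with c | c
  · obtain ⟨x, hx⟩ := DFunLike.ne_iff.1 n
    have d : σ x - x ≠ 0 := sub_ne_zero.2 hx
    have e : σ (σ x - x) = -(σ x - x) := by rw [map_sub, s, neg_sub]
    generalize σ x - x = δ at d e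
    refine ⟨(δ - δ⁻¹) / 2, i * (δ + δ⁻¹) / 2, ?_, ?_, ?_⟩
    · field_simp
      linear_combination (δ ^ 2 + 1) ^ 2 * hi
    · simp [e, map_ofNat]; ring
    · simp [e, map_ofNat, sub_eq_zero.1 c]; ring
  · exact ⟨0, i, by linear_combination hi, by simp, eq_neg_of_add_eq_zero_left c⟩

theorem γ_det {E : Type*} [Field E] (a b : E) : (γ a b 0).det = 1 := by
  simp [γ, det_succ_row_zero, Fin.sum_univ_succ, Fin.succAbove]

theorem c_det {E : Type*} [Field E] {a b : E} (h : a ^ 2 + b ^ 2 = -1) (h2 : (2 : E) ≠ 0) : ((2 : E)⁻¹ • Cm a b).det = 1 := by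
  rw [det_smul, Cm_det h, Fintype.card_fin]; field_simp; norm_num

theorem sp_mem {E : Type*} [Field E] {A : Matrix (Fin 4) (Fin 4) E} (h : A * J4 * Aᵀ = J4) :
    A.submatrix finSumFinEquiv finSumFinEquiv ∈ symplecticGroup (Fin 2) E := by
  have : J (Fin 2) E = J4.submatrix finSumFinEquiv finSumFinEquiv := by
    ext (i | i) (j | j) <;> fin_cases i <;> fin_cases j <;> simp [J, J4, finSumFinEquiv]
  rw [SymplecticGroup.mem_iff, this, transpose_submatrix, submatrix_mul_equiv, submatrix_mul_equiv, h]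

theorem gk3 : GK3.{u} := by
  intro G _ _ h r hr
  refine ⟨fun ⟨E, _, _, hE, ⟨e⟩⟩ => ?_, fun ⟨E, _, _, hE, ⟨e⟩⟩ => ?_, fun ⟨E, _, _, hE, ⟨e⟩⟩ => ?_⟩
  · have h2 := two_ne (hE ▸ hr)
    obtain ⟨a, b, ab⟩ := ex_ab E
    refine key ab h2 (Γ := symplecticGroup (Fin 2) E)
      ((reindexAlgEquiv E E finSumFinEquiv).toMulEquiv.toMonoidHom.comp (Submonoid.subtype _))
      ((reindexAlgEquiv E E finSumFinEquiv).injective.comp Subtype.val_injective) e ⟨_, sp_mem (A := γ a b 0) ?_⟩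
      ⟨_, sp_mem (A := (2 : E)⁻¹ • Cm a b) ?_⟩ (by simp) (by simp) h
    · ext s t; fin_cases s <;> fin_cases t <;> simp [J4, γ, Matrix.mul_apply, Fin.sum_univ_four]
    · rw [transpose_smul, smul_mul_assoc, smul_mul_assoc, mul_smul_comm, Cm_J ab, smul_smul, smul_smul,
        show (2 : E)⁻¹ * 2⁻¹ * 4 = 1 by field_simp; norm_num, one_smul]
  · have h2 := two_ne (hE ▸ hr)
    obtain ⟨a, b, ab⟩ := ex_ab E
    exact key ab h2 (Γ := SL(4, E)) ⟨⟨Subtype.val, rfl⟩, fun _ _ => rfl⟩ Subtype.val_injective e ⟨_, γ_det a b⟩ ⟨_, c_det ab h2⟩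
      rfl rfl h
  · have h2 := two_ne (hE ▸ hr.pow)
    obtain ⟨i, hi⟩ := FiniteField.isSquare_neg_one_iff.2 (show Fintype.card E % 4 ≠ 3 by
      obtain ⟨k, rfl⟩ := hr
      rw [hE, show (2 * k + 1) ^ 2 = 4 * (k * k + k) + 1 by ring]; omega)
    obtain ⟨a, b, ab, ha, hb⟩ := ex_ab' h2 (H11.frob hE) (H11.frob_frob hE) (H11.frob_ne_id hE) i hi.symm
    generalize hσ : H11.frob hE = σ at ha hb
    refine key ab h2 (Γ := SU 4 E r) ⟨⟨fun g => g.1.1, rfl⟩, fun _ _ => rfl⟩ (Subtype.val_injective.comp Subtype.val_injective) e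
      ⟨_, H11.mem_SU_of_matrix hE (γ_det a b) ?_⟩ ⟨_, H11.mem_SU_of_matrix hE (c_det ab h2) ?_⟩ rfl rfl h <;> rw [hσ]
    · ext s t; fin_cases s <;> fin_cases t <;> simp [γ, Matrix.mul_apply, Fin.sum_univ_four]
    · rw [show ((2 : E)⁻¹ • Cm a b).map σ = (2 : E)⁻¹ • (Cm a b).map σ by ext; simp [map_ofNat], transpose_smul, smul_mul_assoc,
        mul_smul_comm, Cm_u ab σ ha hb, smul_smul, smul_smul, show (2 : E)⁻¹ * 2⁻¹ * 4 = 1 by field_simp; norm_num, one_smul]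

end H5.S6
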